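import Mathlib
import Cfsg.Prelude.Def_HallClasses
import Cfsg.Agent.H64.Basic

set_option autoImplicit false
set_option linter.style.haveILetI false

/-! Basic tools for Hall subgroups of symmetric and alternating groups. -/

universe u

namespace Cfsg.Agent.H49.Hall

open Cfsg.Agent.H64

section General

variable {G : Type*} [Group G]

/-- `|H ∩ K| [K : H ∩ K] = |K|`. -/
theorem card_inf_mul_relIndex (H K : Subgroup G) :
    Nat.card (H ⊓ K : Subgroup G) * H.relIndex K = Nat.card K := by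
  have h := Subgroup.relIndex_mul_relIndex (⊥ : Subgroup G) (H ⊓ K) K bot_le inf_le_right
  rwa [Subgroup.relIndex_bot_left, Subgroup.relIndex_bot_left, Subgroup.inf_relIndex_right] at h

theorem card_mul_relIndex_of_le {H K : Subgroup G} (hHK : H ≤ K) :
    Nat.card H * H.relIndex K = Nat.card K := by
  have h := card_inf_mul_relIndex H K
  rwa [inf_eq_left.2 hHK] at h

/-- If `H` normalizes `N` then `[HN : H] = [N : H ∩ N]`. -/
theorem relIndex_sup_of_norm [Finite G] (H N : Subgroup G) (hn : ∀ h ∈ H, ∀ n ∈ N, h * n * h⁻¹ ∈ N) :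
    H.relIndex (H ⊔ N) = H.relIndex N := by
  have hHN : H ≤ Subgroup.normalizer (N : Set G) := by
    intro h hh
    rw [Subgroup.mem_normalizer_iff]
    intro n
    refine ⟨fun h1 => hn h hh n h1, fun h1 => ?_⟩
    have := hn h⁻¹ (H.inv_mem hh) _ h1
    simpa [mul_assoc] using this
  set S := H ⊔ N with hS
  have hSN : S ≤ Subgroup.normalizer (N : Set G) := sup_le hHN Subgroup.le_normalizer
  haveI : (N.subgroupOf S).Normal := Subgroup.normal_subgroupOf_of_le_normalizer hSN
  have hz : N.relIndex S = N.relIndex H := by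
    have h1 := Subgroup.relIndex_sup_right (H.subgroupOf S) (N.subgroupOf S)
    have h2 : H.subgroupOf S ⊔ N.subgroupOf S = ⊤ := by
      rw [← Subgroup.subgroupOf_sup le_sup_left le_sup_right, Subgroup.subgroupOf_self]
    rw [h2, Subgroup.relIndex_top_right, Subgroup.relIndex_subgroupOf le_sup_left] at h1
    exact h1
  have e1 : Nat.card H * H.relIndex S = Nat.card S := card_mul_relIndex_of_le le_sup_left
  have e2 : Nat.card N * N.relIndex S = Nat.card S := card_mul_relIndex_of_le le_sup_right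
  have e3 := card_inf_mul_relIndex H N
  have e4 := card_inf_mul_relIndex N H
  rw [inf_comm] at e4
  rw [hz] at e2
  have hc : 0 < Nat.card (H ⊓ N : Subgroup G) := Nat.card_pos
  have hzpos : 0 < N.relIndex H := by
    rcases Nat.eq_zero_or_pos (N.relIndex H) with h | h
    · rw [h, mul_zero] at e4
      exact absurd e4.symm Nat.card_pos.ne'
    · exact h
  rw [← e4] at e1
  rw [← e3] at e2
  have : Nat.card (H ⊓ N : Subgroup G) * N.relIndex H * H.relIndex S =
      Nat.card (H ⊓ N : Subgroup G) * N.relIndex H * H.relIndex N := by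
    rw [e1, ← e2]; ring
  exact Nat.eq_of_mul_eq_mul_left (Nat.mul_pos hc hzpos) this

/-- In the normalized situation `[N : M ∩ N]` divides `[A : M ∩ A]` for `N ≤ A`. -/
theorem relIndex_dvd_of_norm [Finite G] (M N A : Subgroup G) (hNA : N ≤ A)
    (hn : ∀ h ∈ M ⊓ A, ∀ n ∈ N, h * n * h⁻¹ ∈ N) : M.relIndex N ∣ M.relIndex A := by
  have h1 := relIndex_sup_of_norm (M ⊓ A) N hn
  have h2 : (M ⊓ A).relIndex N = M.relIndex N := by
    rw [← Subgroup.inf_relIndex_right, inf_assoc, inf_eq_right.2 hNA, Subgroup.inf_relIndex_right]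
  have h3 : (M ⊓ A) ⊔ N ≤ A := sup_le inf_le_right hNA
  have h4 := Subgroup.relIndex_mul_relIndex (M ⊓ A) ((M ⊓ A) ⊔ N) A le_sup_left h3
  rw [h1, h2, Subgroup.inf_relIndex_right] at h4
  exact Dvd.intro _ h4

end General

variable {α : Type u} [Fintype α] [DecidableEq α]

/-- A `π`-subgroup of the symmetric group whose intersection with the alternating group has `π'`-index in it. -/
structure AH (π : Set ℕ) (M : Subgroup (Equiv.Perm α)) : Prop where
  pi : ∀ p : ℕ, p.Prime → p ∣ Nat.card M → p ∈ π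
  hall : ∀ p : ℕ, p.Prime → p ∈ π → ¬ p ∣ M.relIndex (alternatingGroup α)

variable {π : Set ℕ} {M : Subgroup (Equiv.Perm α)}

theorem AH.exists_conj (h : AH π M) {p : ℕ} (hp : p.Prime) (hpπ : p ∈ π) (P : Subgroup (Equiv.Perm α))
    (hP : IsPGroup p P) (hPA : P ≤ alternatingGroup α) : ∃ g : Equiv.Perm α, ∀ x ∈ P, g * x * g⁻¹ ∈ M := by
  haveI : Fact p.Prime := ⟨hp⟩
  have h1 : IsPGroup p (P.subgroupOf (alternatingGroup α)) := hP.comap_subtype
  obtain ⟨Q, hQ⟩ := h1.exists_le_sylow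
  obtain ⟨g, hg⟩ := exists_sylow_conj_le Q (M.subgroupOf (alternatingGroup α)) (h.hall p hp hpπ)
  refine ⟨g, fun x hx => ?_⟩
  have h2 : (⟨x, hPA hx⟩ : alternatingGroup α) ∈ (Q : Subgroup (alternatingGroup α)) :=
    hQ (Subgroup.mem_subgroupOf.2 hx)
  have h3 := hg (conj_mem_map_conj h2)
  rw [Subgroup.mem_subgroupOf] at h3
  simpa using h3

/-- commuting sets of elements of exponent `q` generate a group of exponent `q`. -/
theorem closure_pow_eq_one {G : Type*} [Group G] {S : Set G} {q : ℕ}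
    (hc : ∀ x ∈ S, ∀ y ∈ S, x * y = y * x) (hq : ∀ x ∈ S, x ^ q = 1) {x : G} (hx : x ∈ Subgroup.closure S) :
    x ^ q = 1 := by
  haveI := Subgroup.isMulCommutative_closure hc
  induction hx using Subgroup.closure_induction with
  | mem x hx => exact hq x hx
  | one => exact one_pow q
  | mul x y hx hy ihx ihy =>
    have hcomm : Commute x y := setLike_mul_comm hx hy
    rw [hcomm.mul_pow, ihx, ihy, one_mul]
  | inv x hx ih => rw [inv_pow, ih, inv_one]

/-- For `q = p ^ e` with `p ∈ π` and `k q ≤ n`, there are `k` disjoint `q`-cycles all of whose products of pairs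
are in `M`. -/
theorem AH.exists_cycles (h : AH π M) {p e k : ℕ} (hp : p.Prime) (hpπ : p ∈ π) (he : 1 ≤ e)
    (hk : k * p ^ e ≤ Fintype.card α) :
    ∃ c : Fin k → Equiv.Perm α, (∀ i, (c i).cycleType = {p ^ e}) ∧
      (∀ i j, i ≠ j → Equiv.Perm.Disjoint (c i) (c j)) ∧ ∀ i j, c i * c j ∈ M := by
  have hq2 : 2 ≤ p ^ e := le_trans hp.two_le (Nat.le_self_pow (by omega) p)
  obtain ⟨σ, hσ⟩ := (Equiv.Perm.exists_with_cycleType_iff α (m := Multiset.replicate k (p ^ e))).2 ⟨by
    rw [Multiset.sum_replicate, smul_eq_mul]; exact hk, fun a ha => by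
      rw [Multiset.eq_of_mem_replicate ha]; exact hq2⟩
  have hcard : σ.cycleFactorsFinset.card = k := by
    have h1 : Multiset.card σ.cycleType = k := by rw [hσ, Multiset.card_replicate]
    rw [Equiv.Perm.cycleType_def, Multiset.card_map] at h1
    exact h1
  have hct : ∀ c ∈ σ.cycleFactorsFinset, c.cycleType = {p ^ e} := by
    intro c hc
    have h1 : c.IsCycle := (Equiv.Perm.mem_cycleFactorsFinset_iff.1 hc).1
    rw [h1.cycleType]
    have h2 : c.support.card ∈ σ.cycleType := by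
      rw [Equiv.Perm.cycleType_def, Multiset.mem_map]
      exact ⟨c, hc, rfl⟩
    rw [hσ] at h2
    rw [Multiset.eq_of_mem_replicate h2]
  set E : Subgroup (Equiv.Perm α) := Subgroup.closure (σ.cycleFactorsFinset : Set (Equiv.Perm α)) with hE
  have hcomm : ∀ x ∈ (σ.cycleFactorsFinset : Set (Equiv.Perm α)), ∀ y ∈ (σ.cycleFactorsFinset : Set (Equiv.Perm α)),
      x * y = y * x := by
    intro x hx y hy
    exact Equiv.Perm.cycleFactorsFinset_mem_commute' σ hx hy
  have hexp : ∀ x ∈ E, x ^ (p ^ e) = 1 := by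
    intro x hx
    refine closure_pow_eq_one hcomm ?_ hx
    intro y hy
    have h1 : orderOf y = p ^ e := by
      rw [← Equiv.Perm.lcm_cycleType, hct y hy]; simp
    rw [← h1]; exact pow_orderOf_eq_one y
  have hPE : IsPGroup p (E ⊓ alternatingGroup α : Subgroup (Equiv.Perm α)) := by
    rintro ⟨x, hx⟩
    refine ⟨e, ?_⟩
    ext1
    simpa using hexp x hx.1
  obtain ⟨g, hg⟩ := h.exists_conj hp hpπ _ hPE inf_le_right
  have eqv : Fin k ≃ σ.cycleFactorsFinset := (Fintype.equivFinOfCardEq (by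
    rw [Fintype.card_coe, hcard])).symm
  refine ⟨fun i => g * (eqv i : Equiv.Perm α) * g⁻¹, ?_, ?_, ?_⟩
  · intro i
    rw [Equiv.Perm.cycleType_conj]
    exact hct _ (eqv i).2
  · intro i j hij
    have h1 : (eqv i : Equiv.Perm α) ≠ (eqv j : Equiv.Perm α) := by
      intro h1
      exact hij (eqv.injective (Subtype.ext h1))
    have h2 := Equiv.Perm.cycleFactorsFinset_pairwise_disjoint σ (eqv i).2 (eqv j).2 h1
    exact h2.conj g
  · intro i j
    have e1 : g * (eqv i : Equiv.Perm α) * g⁻¹ * (g * (eqv j : Equiv.Perm α) * g⁻¹) =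
        g * ((eqv i : Equiv.Perm α) * (eqv j : Equiv.Perm α)) * g⁻¹ := by group
    rw [e1]
    apply hg
    refine Subgroup.mem_inf.2
      ⟨Subgroup.mul_mem _ (Subgroup.subset_closure (eqv i).2) (Subgroup.subset_closure (eqv j).2), ?_⟩
    rw [Equiv.Perm.mem_alternatingGroup, map_mul, Equiv.Perm.sign_of_cycleType, Equiv.Perm.sign_of_cycleType,
      hct _ (eqv i).2, hct _ (eqv j).2]
    rw [← pow_add, ← two_mul, pow_mul]
    norm_num

theorem AH.exists_cycles_odd (h : AH π M) {p e k : ℕ} (hp : p.Prime) (hp2 : p ≠ 2) (hpπ : p ∈ π) (he : 1 ≤ e)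
    (hk : k * p ^ e ≤ Fintype.card α) :
    ∃ c : Fin k → Equiv.Perm α, (∀ i, (c i).cycleType = {p ^ e}) ∧
      (∀ i j, i ≠ j → Equiv.Perm.Disjoint (c i) (c j)) ∧ ∀ i, c i ∈ M := by
  obtain ⟨c, h1, h2, h3⟩ := h.exists_cycles hp hpπ he hk
  refine ⟨c, h1, h2, fun i => ?_⟩
  have hord : orderOf (c i) = p ^ e := by rw [← Equiv.Perm.lcm_cycleType, h1 i]; simp
  have hodd : (p ^ e) % 2 = 1 := Nat.odd_iff.1 ((hp.odd_of_ne_two hp2).pow)
  have h4 : (c i * c i) ^ ((p ^ e + 1) / 2) = c i := by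
    rw [← pow_two, ← pow_mul]
    have : 2 * ((p ^ e + 1) / 2) = p ^ e + 1 := by omega
    rw [this, pow_succ, ← hord, pow_orderOf_eq_one, one_mul]
  rw [← h4]
  exact M.pow_mem (h3 i i) _

/-- A `p`-cycle for an odd prime of `π`. -/
theorem AH.exists_pcycle (h : AH π M) {p : ℕ} (hp : p.Prime) (hp2 : p ≠ 2) (hpπ : p ∈ π)
    (hpn : p ≤ Fintype.card α) : ∃ c ∈ M, Equiv.Perm.cycleType c = {p} := by
  obtain ⟨c, h1, _, h3⟩ := h.exists_cycles_odd (k := 1) hp hp2 hpπ le_rfl (by simpa using hpn)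
  exact ⟨c 0, h3 0, by simpa using h1 0⟩

end Cfsg.Agent.H49.Hall
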