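import Cfsg.Agent.H49.Hall.Prim

set_option autoImplicit false
set_option linter.style.haveILetI false
set_option linter.unusedSectionVars false

/-! Systems of imprimitivity, given by a function on the points. -/

universe u v

namespace Cfsg.Agent.H49.Hall

variable {α : Type u} [Fintype α] [DecidableEq α] {M : Subgroup (Equiv.Perm α)}
variable {ι : Type v} [Fintype ι] [DecidableEq ι] {f : α → ι} {a : ℕ}

/-- `f` is a system of imprimitivity of `M` with blocks of size `a`. -/
structure Imp (M : Subgroup (Equiv.Perm α)) (f : α → ι) (a : ℕ) : Prop where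
  inv : ∀ g ∈ M, ∀ x y, f x = f y → f (g x) = f (g y)
  fib : ∀ i, (Finset.univ.filter (fun x => f x = i)).card = a

theorem Imp.card (h : Imp M f a) : Fintype.card α = Fintype.card ι * a := by
  have h1 := Finset.card_eq_sum_card_fiberwise (s := (Finset.univ : Finset α)) (t := (Finset.univ : Finset ι)) (f := f)
    (by intro x _; simp)
  rw [Finset.card_univ] at h1
  rw [h1, Finset.sum_congr rfl (fun i _ => h.fib i), Finset.sum_const, Finset.card_univ, smul_eq_mul]

theorem Imp.inv_iff (h : Imp M f a) {g : Equiv.Perm α} (hg : g ∈ M) {x y : α} : f (g x) = f (g y) ↔ f x = f y := by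
  refine ⟨fun h1 => ?_, h.inv g hg x y⟩
  have := h.inv g⁻¹ (M.inv_mem hg) _ _ h1
  simpa using this

/-- an element moving a block moves at least `2 a` points. -/
theorem Imp.two_mul_le (h : Imp M f a) {g : Equiv.Perm α} (hg : g ∈ M) {x : α} (hx : f (g x) ≠ f x) :
    2 * a ≤ g.support.card := by
  have h1 : Finset.univ.filter (fun y => f y = f x) ⊆ g.support := by
    intro y hy
    rw [Finset.mem_filter] at hy
    rw [Equiv.Perm.mem_support]
    intro h2
    apply hx
    rw [← h.inv g hg y x hy.2, h2, hy.2]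
  have h2 : Finset.univ.filter (fun y => f y = f (g x)) ⊆ g.support := by
    intro y hy
    rw [Finset.mem_filter] at hy
    rw [Equiv.Perm.mem_support]
    intro h3
    have h4 : f (g y) = f (g x) := by rw [h3]; exact hy.2
    have h5 := (h.inv_iff hg).1 h4
    exact hx (hy.2.symm.trans h5)
  have h3 : Disjoint (Finset.univ.filter (fun y => f y = f x)) (Finset.univ.filter (fun y => f y = f (g x))) := by
    rw [Finset.disjoint_left]
    intro y h4 h5
    rw [Finset.mem_filter] at h4 h5
    exact hx (h5.2.symm.trans h4.2)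
  have h4 := Finset.card_le_card (Finset.union_subset h1 h2)
  rw [Finset.card_union_of_disjoint h3, h.fib, h.fib] at h4
  omega

theorem Imp.fix_of_lt (h : Imp M f a) {g : Equiv.Perm α} (hg : g ∈ M) (hlt : g.support.card < 2 * a) (x : α) :
    f (g x) = f x := by
  by_contra hcon
  have := h.two_mul_le hg hcon
  omega

/-- iterates -/
theorem Imp.zpow_fix (h : Imp M f a) {g : Equiv.Perm α} (hg : g ∈ M) {x : α} (hx : f (g x) = f x) (k : ℤ) :
    f ((g ^ k) x) = f x := by
  have hn : ∀ k : ℕ, f ((g ^ k) x) = f x := by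
    intro k
    induction k with
    | zero => simp
    | succ k ih =>
      rw [pow_succ', Equiv.Perm.mul_apply, h.inv g hg _ _ ih, hx]
  rcases Int.eq_nat_or_neg k with ⟨n, rfl | rfl⟩
  · simpa using hn n
  · have h1 : g ^ n ∈ M := M.pow_mem hg n
    rw [← h.inv_iff h1, ← Equiv.Perm.mul_apply]
    simp [hn]

/-- a cycle of `M` moving a block has length divisible by `a`. -/
theorem Imp.dvd_of_cycle (h : Imp M f a) {c : Equiv.Perm α} (hc : c ∈ M) (hcy : c.IsCycle) {x : α}
    (hx : f (c x) ≠ f x) : a ∣ c.support.card := by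
  have hxs : c x ≠ x := fun e => hx (by rw [e])
  have h1 : ∀ y ∈ c.support, f (c y) ≠ f y := by
    intro y hy hcon
    obtain ⟨k, hk⟩ := hcy.exists_zpow_eq (Equiv.Perm.mem_support.1 hy) hxs
    apply hx
    rw [← hk]
    have h2 : c ((c ^ k) y) = (c ^ k) (c y) := by
      rw [← Equiv.Perm.mul_apply, ← Equiv.Perm.mul_apply]
      rw [(Commute.self_zpow c k).eq]
    rw [h2]
    exact h.inv _ (M.zpow_mem hc k) _ _ hcon
  have h2 : ∀ y ∈ c.support, Finset.univ.filter (fun z => f z = f y) ⊆ c.support := by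
    intro y hy z hz
    rw [Finset.mem_filter] at hz
    rw [Equiv.Perm.mem_support]
    intro h3
    apply h1 y hy
    rw [← h.inv c hc z y hz.2, h3, hz.2]
  have h3 := Finset.card_eq_sum_card_fiberwise (s := c.support) (t := c.support.image f) (f := f)
    (by intro x hx; exact Finset.mem_coe.2 (Finset.mem_image_of_mem f hx))
  rw [h3]
  apply Finset.dvd_sum
  intro i hi
  obtain ⟨y, hy, rfl⟩ := Finset.mem_image.1 hi
  have h4 : c.support.filter (fun z => f z = f y) = Finset.univ.filter (fun z => f z = f y) := by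
    ext z
    simp only [Finset.mem_filter, Finset.mem_univ, true_and, and_iff_right_iff_imp]
    intro hz
    exact h2 y hy (by simp [hz])
  rw [h4, h.fib]

theorem Imp.cycle_fiber (_h : Imp M f a) {c : Equiv.Perm α} (hcy : c.IsCycle)
    (hfix : ∀ x, f (c x) = f x) : ∃ i, ∀ x ∈ c.support, f x = i := by
  obtain ⟨x, hx, hxs⟩ := id hcy
  refine ⟨f x, fun y hy => ?_⟩
  obtain ⟨k, hk⟩ := hcy.exists_zpow_eq hx (Equiv.Perm.mem_support.1 hy)
  rw [← hk]
  have hn : ∀ k : ℕ, ∀ x, f ((c ^ k) x) = f x := by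
    intro k
    induction k with
    | zero => intro x; simp
    | succ k ih =>
      intro x
      rw [pow_succ', Equiv.Perm.mul_apply, hfix, ih]
  rcases Int.eq_nat_or_neg k with ⟨n, rfl | rfl⟩
  · simpa using hn n x
  · have h1 := hn n ((c ^ (-(n : ℤ))) x)
    rw [← h1, ← Equiv.Perm.mul_apply]
    simp

/-- the counting inequality -/
theorem Imp.cover (h : Imp M f a) {k q : ℕ} (hq : 0 < q) {c : Fin k → Equiv.Perm α}
    (hct : ∀ i, (c i).cycleType = {q}) (hdis : ∀ i j, i ≠ j → Equiv.Perm.Disjoint (c i) (c j))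
    (hfix : ∀ i x, f (c i x) = f x) : k ≤ Fintype.card ι * (a / q) := by
  have hcy : ∀ i, (c i).IsCycle := fun i => Equiv.Perm.card_cycleType_eq_one.1 (by rw [hct]; simp)
  have hsc : ∀ i, (c i).support.card = q := fun i => by rw [← Equiv.Perm.sum_cycleType, hct]; simp
  choose j hj using fun i => h.cycle_fiber (hcy i) (hfix i)
  have h1 : ∀ t : ι, (Finset.univ.filter (fun i => j i = t)).card ≤ a / q := by
    intro t
    rw [Nat.le_div_iff_mul_le hq]
    have h2 : ((Finset.univ.filter (fun i => j i = t)).biUnion (fun i => (c i).support)).card =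
        ∑ i ∈ Finset.univ.filter (fun i => j i = t), (c i).support.card := by
      apply Finset.card_biUnion
      intro x _ y _ hxy
      exact Equiv.Perm.disjoint_iff_disjoint_support.1 (hdis x y hxy)
    rw [Finset.sum_congr rfl (fun i _ => hsc i), Finset.sum_const, smul_eq_mul] at h2
    rw [← h2, ← h.fib t]
    apply Finset.card_le_card
    intro x hx
    rw [Finset.mem_biUnion] at hx
    obtain ⟨i, hi, hxi⟩ := hx
    rw [Finset.mem_filter] at hi ⊢
    exact ⟨Finset.mem_univ _, by rw [hj i x hxi, hi.2]⟩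
  have h3 := Finset.card_eq_sum_card_fiberwise (s := (Finset.univ : Finset (Fin k))) (t := (Finset.univ : Finset ι))
    (f := j) (by intro x _; simp)
  rw [Finset.card_univ, Fintype.card_fin] at h3
  rw [h3]
  calc ∑ b : ι, (Finset.univ.filter (fun i => j i = b)).card ≤ ∑ _b : ι, a / q := Finset.sum_le_sum (fun t _ => h1 t)
    _ = Fintype.card ι * (a / q) := by rw [Finset.sum_const, Finset.card_univ, smul_eq_mul]

theorem mod_lt_of_cover {a b q : ℕ} (hq : 0 < q) (h : b * a / q ≤ b * (a / q)) : b * (a % q) < q := by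
  have h1 : b * a = q * (b * (a / q)) + b * (a % q) := by
    conv_lhs => rw [← Nat.div_add_mod a q]
    ring
  rw [h1, Nat.mul_add_div hq] at h
  have h2 : b * (a % q) / q = 0 := by
    generalize b * (a % q) / q = x at h ⊢
    omega
  rcases (Nat.div_eq_zero_iff).1 h2 with h3 | h3
  · omega
  · exact h3

/-- the group induced on the fiber of `i` -/
def indFib (M : Subgroup (Equiv.Perm α)) (f : α → ι) (i : ι) : Subgroup (Equiv.Perm {x // f x = i}) where
  carrier := {τ | ∃ g ∈ M, ∀ x : {x // f x = i}, ((τ x : {x // f x = i}) : α) = g x}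
  mul_mem' := by
    rintro τ₁ τ₂ ⟨g₁, hg₁, h₁⟩ ⟨g₂, hg₂, h₂⟩
    exact ⟨g₁ * g₂, M.mul_mem hg₁ hg₂, fun x => by rw [Equiv.Perm.mul_apply, Equiv.Perm.mul_apply, h₁, h₂]⟩
  one_mem' := ⟨1, M.one_mem, fun x => rfl⟩
  inv_mem' := by
    rintro τ ⟨g, hg, h⟩
    refine ⟨g⁻¹, M.inv_mem hg, fun x => ?_⟩
    rw [Equiv.Perm.eq_inv_iff_eq, ← h]
    simp

theorem mem_indFib {i : ι} {τ : Equiv.Perm {x // f x = i}} :
    τ ∈ indFib M f i ↔ ∃ g ∈ M, ∀ x : {x // f x = i}, ((τ x : {x // f x = i}) : α) = g x := Iff.rfl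

theorem dvd_of_dvd_indFib {i : ι} {p : ℕ} (hp : p.Prime) (h : p ∣ Nat.card (indFib M f i)) : p ∣ Nat.card M := by
  haveI : Fact p.Prime := ⟨hp⟩
  obtain ⟨⟨τ, hτ⟩, hord⟩ := exists_prime_orderOf_dvd_card' p h
  obtain ⟨g, hg, hgx⟩ := id hτ
  rw [Subgroup.orderOf_mk] at hord
  have h1 : ∀ m : ℕ, ∀ x : {x // f x = i}, (((τ ^ m) x : {x // f x = i}) : α) = (g ^ m) x := by
    intro m
    induction m with
    | zero => intro x; simp
    | succ m ih =>
      intro x
      rw [pow_succ, pow_succ, Equiv.Perm.mul_apply, Equiv.Perm.mul_apply, ih, hgx]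
  have h2 : τ ^ orderOf g = 1 := by
    ext x
    rw [h1, pow_orderOf_eq_one]
    rfl
  have h3 : p ∣ orderOf g := by rw [← hord]; exact orderOf_dvd_of_pow_eq_one h2
  have h5 : orderOf (⟨g, hg⟩ : M) = orderOf g := Subgroup.orderOf_mk _ _
  rw [← h5] at h3
  exact h3.trans (orderOf_dvd_natCard _)

theorem Imp.exists_restrict (h : Imp M f a) {g : Equiv.Perm α} (hg : g ∈ M) {x : α} {i : ι} (hx : f x = i)
    (hgx : f (g x) = i) : ∃ τ ∈ indFib M f i, ∀ y : {y // f y = i}, ((τ y : {y // f y = i}) : α) = g y := by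
  have h1 : ∀ y, f (g y) = i ↔ f y = i := by
    intro y
    rw [← hgx, h.inv_iff hg, hx, hgx]
  exact ⟨g.subtypePerm h1, ⟨g, hg, fun y => rfl⟩, fun y => rfl⟩

theorem Imp.indFib_trans (h : Imp M f a) (htr : MulAction.IsPretransitive M α) (i : ι) :
    MulAction.IsPretransitive (indFib M f i) {x // f x = i} := by
  refine ⟨fun x y => ?_⟩
  obtain ⟨g, hg⟩ := htr.exists_smul_eq (x : α) (y : α)
  obtain ⟨τ, hτ, hτx⟩ := h.exists_restrict g.2 x.2 (show f ((g : Equiv.Perm α) x) = i from by
    have : (g : Equiv.Perm α) x = y := hg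
    rw [this]; exact y.2)
  refine ⟨⟨τ, hτ⟩, ?_⟩
  apply Subtype.ext
  have h1 := hτx x
  have h2 : (g : Equiv.Perm α) x = y := hg
  rw [h2] at h1
  exact h1

theorem Imp.indFib_prim (h : Imp M f a) (htr : MulAction.IsPretransitive M α)
    (hmin : ∀ C : Finset α, Blk M C → 2 ≤ C.card → a ≤ C.card) (i : ι) :
    MulAction.IsPreprimitive (indFib M f i) {x // f x = i} := by
  classical
  haveI := h.indFib_trans htr i
  refine { isTrivialBlock_of_isBlock := ?_ }
  intro B hB
  by_cases hsub : B.Subsingleton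
  · exact Or.inl hsub
  right
  set C : Finset {x // f x = i} := B.toFinset with hC
  have hCB : (C : Set {x // f x = i}) = B := by rw [hC]; simp
  have hC2 : 2 ≤ C.card := by
    by_contra hcon
    apply hsub
    intro x hx y hy
    exact Finset.card_le_one.1 (by omega : C.card ≤ 1) x (by simpa [hC] using hx) y (by simpa [hC] using hy)
  set C' : Finset α := C.map (Function.Embedding.subtype _) with hC'
  have hBlk : Blk M C' := by
    intro g hg x hx hgx y hy
    simp only [hC', Finset.mem_map, Function.Embedding.coe_subtype] at hx hgx hy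
    obtain ⟨x, hx, rfl⟩ := hx
    obtain ⟨x', hx', hxx'⟩ := hgx
    obtain ⟨y, hy, rfl⟩ := hy
    obtain ⟨τ, hτ, hτx⟩ := h.exists_restrict hg x.2 (by rw [← hxx']; exact x'.2)
    have h1 : τ x = x' := Subtype.ext (by rw [hτx, hxx'])
    have hBlkC : Blk (indFib M f i) C := blk_of_isBlock (by rw [hCB]; exact hB)
    have h3 := hBlkC τ hτ x hx (by rw [h1]; exact hx') y hy
    rw [hC', Finset.mem_map]
    exact ⟨τ y, h3, by rw [Function.Embedding.coe_subtype, hτx]⟩
  have h1 := hmin C' hBlk (by rw [hC', Finset.card_map]; exact hC2)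
  rw [hC', Finset.card_map] at h1
  have h2 : Fintype.card {x // f x = i} = a := by rw [Fintype.card_subtype]; exact h.fib i
  have h3 : C = Finset.univ := by
    apply Finset.eq_univ_of_card
    apply le_antisymm (Finset.card_le_univ C)
    rw [h2]; exact h1
  rw [← hCB, h3]
  simp

/-- a minimal system of imprimitivity. -/
theorem exists_min_imp (htr : MulAction.IsPretransitive M α) (h2 : 2 ≤ Fintype.card α) :
    ∃ (ι : Type u) (_ : Fintype ι) (_ : DecidableEq ι) (f : α → ι) (a : ℕ), Imp M f a ∧ 2 ≤ a ∧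
      (∀ C : Finset α, Blk M C → 2 ≤ C.card → a ≤ C.card) ∧
      (¬ MulAction.IsPreprimitive M α → a < Fintype.card α) := by
  classical
  obtain ⟨B, hB, hmin⟩ := Finset.exists_min_image (Finset.univ.filter (fun C : Finset α => Blk M C ∧ 2 ≤ C.card))
    Finset.card ⟨Finset.univ, by
      rw [Finset.mem_filter]
      exact ⟨Finset.mem_univ _, fun g _ x _ _ y _ => Finset.mem_univ _, by rw [Finset.card_univ]; exact h2⟩⟩
  rw [Finset.mem_filter] at hB
  obtain ⟨_, hBlk, hB2⟩ := hB
  have hmin' : ∀ C : Finset α, Blk M C → 2 ≤ C.card → B.card ≤ C.card := by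
    intro C hC hC2
    exact hmin C (Finset.mem_filter.2 ⟨Finset.mem_univ _, hC, hC2⟩)
  have htr' : ∀ x y : α, ∃ g ∈ M, g x = y := by
    intro x y
    obtain ⟨g, hg⟩ := htr.exists_smul_eq x y
    exact ⟨g, g.2, hg⟩
  obtain ⟨b, hb⟩ : B.Nonempty := Finset.card_pos.1 (by omega)
  have hin : ∀ x : α, ∃ g ∈ M, g x ∈ B := by
    intro x
    obtain ⟨g, hg, hgx⟩ := htr' x b
    exact ⟨g, hg, hgx ▸ hb⟩
  -- key transfer
  have hkey : ∀ x y : α, ∀ g ∈ M, ∀ h ∈ M, g x ∈ B → g y ∈ B → h x ∈ B → h y ∈ B := by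
    intro x y g hg h hh h1 h2 h3
    have h4 := hBlk (h * g⁻¹) (M.mul_mem hh (M.inv_mem hg)) (g x) h1 (by simpa using h3) (g y) h2
    simpa using h4
  let s : Setoid α :=
    { r := fun x y => ∃ g ∈ M, g x ∈ B ∧ g y ∈ B
      iseqv := by
        refine ⟨fun x => ?_, fun {x y} h => ?_, fun {x y z} h1 h2 => ?_⟩
        · obtain ⟨g, hg, hgx⟩ := hin x
          exact ⟨g, hg, hgx, hgx⟩
        · obtain ⟨g, hg, h1, h2⟩ := h
          exact ⟨g, hg, h2, h1⟩
        · obtain ⟨g, hg, h3, h4⟩ := h1
          obtain ⟨k, hk, h5, h6⟩ := h2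
          exact ⟨k, hk, hkey y x g hg k hk h4 h3 h5, h6⟩ }
  refine ⟨Quotient s, inferInstance, inferInstance, Quotient.mk s, B.card, ⟨?_, ?_⟩, hB2, hmin', ?_⟩
  · intro g hg x y hxy
    obtain ⟨k, hk, h1, h2⟩ := Quotient.exact hxy
    apply Quotient.sound
    exact ⟨k * g⁻¹, M.mul_mem hk (M.inv_mem hg), by simpa using h1, by simpa using h2⟩
  · intro i
    obtain ⟨x, rfl⟩ := Quotient.exists_rep i
    obtain ⟨g, hg, hgx⟩ := hin x
    have h1 : (Finset.univ.filter (fun y => (Quotient.mk s y) = Quotient.mk s x)).map g.toEmbedding = B := by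
      ext y
      simp only [Finset.mem_map, Finset.mem_filter, Finset.mem_univ, true_and, Equiv.coe_toEmbedding]
      constructor
      · rintro ⟨z, hz, rfl⟩
        obtain ⟨k, hk, h1, h2⟩ := Quotient.exact hz
        exact hkey x z k hk g hg h2 h1 hgx
      · intro hy
        refine ⟨g⁻¹ y, ?_, by simp⟩
        apply Quotient.sound
        exact ⟨g, hg, by simpa using hy, hgx⟩
    rw [← h1, Finset.card_map]
  · intro hnp
    by_contra hcon
    apply hnp
    refine { toIsPretransitive := htr, isTrivialBlock_of_isBlock := ?_ }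
    intro C hC
    by_cases hsub : C.Subsingleton
    · exact Or.inl hsub
    right
    have hCB : ((C.toFinset : Finset α) : Set α) = C := by simp
    rw [← hCB] at hC
    have h1 : 2 ≤ C.toFinset.card := by
      by_contra hcon2
      apply hsub
      intro x hx y hy
      have := Finset.card_le_one.1 (by omega : C.toFinset.card ≤ 1) x (by simpa using hx) y (by simpa using hy)
      exact this
    have h3 := hmin' _ (blk_of_isBlock hC) h1
    have h4 : C.toFinset = Finset.univ := by
      apply Finset.eq_univ_of_card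
      apply le_antisymm (Finset.card_le_univ _)
      omega
    rw [← hCB, h4]; simp

end Cfsg.Agent.H49.Hall
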