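import Mathlib

set_option autoImplicit false

/-! Number theory for the Hall subgroups of symmetric groups: if `2 ≤ b < a` and the binomial coefficient
`C(a + b, b)` has no prime divisor `≤ a`, then `a = 4` and `b = 3`. -/

namespace Cfsg.Agent.H49.Hall

theorem choose_identity (a j l : ℕ) :
    (j + l + 1) * (j + l).choose j * (a + (j + l + 1)).choose (j + l + 1) =
      (a + (j + 1)) * (a + j).choose a * (a + (j + l + 1)).choose (a + (j + 1)) := by
  have key : ∀ x y : ℕ, (x + y).choose x * x.factorial * y.factorial = (x + y).factorial := by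
    intro x y
    rw [Nat.choose_symm_add, Nat.add_choose_mul_factorial_mul_factorial]
  have h1 := key a (j + l + 1)
  have h2 := key j l
  have h3 := key a j
  have h4 := key (a + (j + 1)) l
  have e1 : (a + (j + l + 1)).choose (j + l + 1) = (a + (j + l + 1)).choose a := (Nat.choose_symm_add).symm
  have e2 : a + (j + 1) + l = a + (j + l + 1) := by ring
  rw [e2] at h4
  rw [e1]
  have h5 : (j + l + 1).factorial = (j + l + 1) * (j + l).factorial := Nat.factorial_succ _
  have h6 : (a + (j + 1)).factorial = (a + (j + 1)) * (a + j).factorial := by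
    rw [show a + (j + 1) = (a + j) + 1 by ring, Nat.factorial_succ]
  have hpos : 0 < a.factorial * j.factorial * l.factorial := by positivity
  apply Nat.eq_of_mul_eq_mul_right hpos
  calc (j + l + 1) * (j + l).choose j * (a + (j + l + 1)).choose a * (a.factorial * j.factorial * l.factorial)
      = (a + (j + l + 1)).choose a * a.factorial * ((j + l + 1) * ((j + l).choose j * j.factorial * l.factorial)) := by
        ring
    _ = (a + (j + l + 1)).factorial := by rw [h2, ← h5, h1]
    _ = (a + (j + 1)) * ((a + j).choose a * a.factorial * j.factorial) * (a + (j + l + 1)).choose (a + (j + 1)) *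
          l.factorial := by
        rw [h3, ← h6, ← h4]; ring
    _ = _ := by ring

/-- The basic alternative: for `1 ≤ i ≤ b`, `a + i` is prime or divides `b C(b - 1, i - 1)`. -/
theorem prime_or_dvd {a b : ℕ} (hba : b < a) (hN : ∀ p : ℕ, p.Prime → p ≤ a → ¬ p ∣ (a + b).choose b)
    {i : ℕ} (hi1 : 1 ≤ i) (hib : i ≤ b) : (a + i).Prime ∨ (a + i) ∣ b * (b - 1).choose (i - 1) := by
  obtain ⟨j, rfl⟩ : ∃ j, i = j + 1 := ⟨i - 1, by omega⟩
  obtain ⟨l, rfl⟩ : ∃ l, b = j + l + 1 := ⟨b - (j + 1), by omega⟩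
  by_cases hp : (a + (j + 1)).Prime
  · exact Or.inl hp
  right
  have hcop : Nat.Coprime (a + (j + 1)) ((a + (j + l + 1)).choose (j + l + 1)) := by
    rw [Nat.coprime_iff_gcd_eq_one]
    by_contra hne
    obtain ⟨p, hpp, hpd⟩ := Nat.exists_prime_and_dvd hne
    have h1 := hpd.trans (Nat.gcd_dvd_left _ _)
    have h2 := hpd.trans (Nat.gcd_dvd_right _ _)
    obtain ⟨c, hc⟩ := h1
    have hc1 : c ≠ 1 := by
      rintro rfl
      rw [mul_one] at hc
      exact hp (hc ▸ hpp)
    have hc0 : c ≠ 0 := by rintro rfl; omega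
    have hc2 : 2 ≤ c := by omega
    have : p * 2 ≤ a + (j + 1) := by rw [hc]; exact Nat.mul_le_mul_left _ hc2
    exact hN p hpp (by omega) h2
  have hid := choose_identity a j l
  have hd : (a + (j + 1)) ∣ (j + l + 1) * (j + l).choose j * (a + (j + l + 1)).choose (j + l + 1) := by
    rw [hid, mul_assoc]; exact dvd_mul_right _ _
  have := hcop.dvd_of_dvd_mul_right hd
  simpa using this

theorem six_mul_choose_three (n : ℕ) : 6 * (n + 3).choose 3 = (n + 3) * (n + 2) * (n + 1) := by
  have := Nat.descFactorial_eq_factorial_mul_choose (n + 3) 3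
  rw [show Nat.factorial 3 = 6 from rfl] at this
  rw [← this]
  simp only [Nat.descFactorial_succ, Nat.descFactorial_zero]
  have h1 : n + 3 - 2 = n + 1 := by omega
  have h2 : n + 3 - 1 = n + 2 := by omega
  have h3 : n + 3 - 0 = n + 3 := by omega
  rw [h1, h2, h3]; ring

theorem finite_check : ∀ e1 ∈ ([1,2,4,5,7,8,10,14,16,20,28,32,35,40,56,70,80,112,140,160,224,280,560,1120] : List ℕ),
    ∀ e2 ∈ List.range e1, 3 * e2 * e2 < e1 * e1 + e1 * e2 →
      (5 * e1 + 11 * e2) / (e1 * e1 + e1 * e2 - 3 * e2 * e2) * (e1 * e1 + e1 * e2 - 3 * e2 * e2) =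
        5 * e1 + 11 * e2 →
      let h := (5 * e1 + 11 * e2) / (e1 * e1 + e1 * e2 - 3 * e2 * e2)
      h * e2 + 2 < 5 ∨ (h * e2 + 2) % 2 = 0 ∨ (h * e1 = 14 ∧ h * e2 + 2 = 9) ∨
        (h * e1 = 212 ∧ h * e2 + 2 = 161) := by
  decide +kernel

theorem mem_divisors_1120 {e : ℕ} (h : e ∣ 1120) :
    e ∈ ([1,2,4,5,7,8,10,14,16,20,28,32,35,40,56,70,80,112,140,160,224,280,560,1120] : List ℕ) := by
  have h1 : e ∈ Nat.divisors 1120 := Nat.mem_divisors.2 ⟨h, by norm_num⟩
  have h2 : Nat.divisors 1120 = ([1,2,4,5,7,8,10,14,16,20,28,32,35,40,56,70,80,112,140,160,224,280,560,1120] : List ℕ).toFinset := by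
    decide +kernel
  rw [h2] at h1
  exact List.mem_toFinset.1 h1

/-- The main numerical lemma. -/
theorem nt_lemma {a b : ℕ} (hb2 : 2 ≤ b) (hba : b < a)
    (hN : ∀ p : ℕ, p.Prime → p ≤ a → ¬ p ∣ (a + b).choose b) : a = 4 ∧ b = 3 := by
  -- a + 1 is prime
  have hP1 : (a + 1).Prime := by
    rcases prime_or_dvd hba hN (i := 1) le_rfl (by omega) with h | h
    · exact h
    · exfalso
      simp only [Nat.sub_self, Nat.choose_zero_right, mul_one] at h
      have := Nat.le_of_dvd (by omega) h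
      omega
  have hP2 : (a + b).Prime := by
    rcases prime_or_dvd hba hN (i := b) (by omega) le_rfl with h | h
    · exact h
    · exfalso
      simp only [Nat.choose_self, mul_one] at h
      have := Nat.le_of_dvd (by omega) h
      omega
  have ha_even : a % 2 = 0 := by
    rcases hP1.eq_two_or_odd with h | h <;> omega
  have hb_odd : b % 2 = 1 := by
    rcases hP2.eq_two_or_odd with h | h <;> omega
  have not_prime_even : ∀ x : ℕ, x % 2 = 0 → 2 < x → ¬ x.Prime := by
    intro x hx hx2 hp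
    rcases hp.eq_two_or_odd with h | h <;> omega
  -- D1 = a + 2
  have hD1 : (a + 2) ∣ b * (b - 1) := by
    rcases prime_or_dvd hba hN (i := 2) (by omega) hb2 with h | h
    · exact absurd h (not_prime_even _ (by omega) (by omega))
    · simpa using h
  obtain ⟨c, rfl⟩ : ∃ c, b = c + 3 := ⟨b - 3, by omega⟩
  rcases Nat.eq_zero_or_pos c with rfl | hc
  · have := Nat.le_of_dvd (by norm_num) hD1
    omega
  exfalso
  have hD2 : (a + (c + 2)) ∣ (c + 3) * (c + 2) := by
    rcases prime_or_dvd hba hN (i := c + 2) (by omega) (by omega) with h | h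
    · exact absurd h (not_prime_even _ (by omega) (by omega))
    · have e : (c + 3 - 1).choose (c + 2 - 1) = c + 2 := by
        rw [show c + 3 - 1 = (c + 1) + 1 by omega, show c + 2 - 1 = c + 1 by omega, Nat.choose_succ_self_right]
      rwa [e] at h
  have e31 : c + 3 - 1 = c + 2 := by omega
  rw [e31] at hD1
  have hc2 : 2 ≤ c := by omega
  -- the gcd
  set g := Nat.gcd (a + 2) (a + (c + 2)) with hg
  have hgc : g ∣ c := by
    have h1 : g ∣ a + 2 := Nat.gcd_dvd_left _ _
    have h2 : g ∣ (a + 2) + c := by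
      have : g ∣ a + (c + 2) := Nat.gcd_dvd_right _ _
      rwa [show a + (c + 2) = a + 2 + c by ring] at this
    exact (Nat.dvd_add_right h1).1 h2
  have hg6 : g ∣ 6 := by
    have h1 : g ∣ (c + 3) * (c + 2) := (Nat.gcd_dvd_left _ _).trans hD1
    have h2 : (c + 3) * (c + 2) = c * (c + 5) + 6 := by ring
    rw [h2] at h1
    exact (Nat.dvd_add_right (hgc.mul_right _)).1 h1
  have hlcm : (a + 2) * (a + (c + 2)) ∣ 6 * ((c + 3) * (c + 2)) := by
    have h1 : Nat.lcm (a + 2) (a + (c + 2)) ∣ (c + 3) * (c + 2) := Nat.lcm_dvd hD1 hD2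
    have h2 : g * Nat.lcm (a + 2) (a + (c + 2)) = (a + 2) * (a + (c + 2)) := Nat.gcd_mul_lcm _ _
    rw [← h2]
    exact Nat.mul_dvd_mul hg6 h1
  obtain ⟨w, hw⟩ := hlcm
  have hw3 : w < 3 := by
    by_contra hcon
    push Not at hcon
    have h1 : (a + 2) * (a + (c + 2)) * 3 ≤ (a + 2) * (a + (c + 2)) * w := Nat.mul_le_mul_left _ hcon
    have h2 : (c + 6) * (2 * c + 6) ≤ (a + 2) * (a + (c + 2)) := Nat.mul_le_mul (by omega) (by omega)
    nlinarith
  have hw0 : w ≠ 0 := by
    rintro rfl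
    rw [mul_zero] at hw
    have : 0 < (c + 3) * (c + 2) := by positivity
    omega
  -- divisibility from i = 4
  have hm : (a + 4) ∣ (c + 3) * (c + 2).choose 3 := by
    rcases prime_or_dvd hba hN (i := 4) (by omega) (by omega) with h | h
    · exact absurd h (not_prime_even _ (by omega) (by omega))
    · simpa using h
  obtain ⟨d, rfl⟩ : ∃ d, c = d + 1 := ⟨c - 1, by omega⟩
  have hch : 6 * (d + 1 + 2).choose 3 = (d + 3) * (d + 2) * (d + 1) := by
    rw [show d + 1 + 2 = d + 3 by ring]; exact six_mul_choose_three d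
  have hm6 : 6 * ((d + 1 + 3) * (d + 1 + 2).choose 3) = (d + 4) * ((d + 3) * (d + 2) * (d + 1)) := by
    rw [← hch]; ring
  have hw12 : w = 1 ∨ w = 2 := by omega
  rcases hw12 with rfl | rfl
  · -- a + 2 = 2 b
    have ha : a = 2 * d + 6 := by
      rcases lt_trichotomy a (2 * d + 6) with h | h | h
      · exfalso
        have h1 : (a + 2) * (a + (d + 1 + 2)) ≤ (2 * d + 7) * (3 * d + 8) := Nat.mul_le_mul (by omega) (by omega)
        nlinarith
      · exact h
      · exfalso
        have h1 : (2 * d + 9) * (3 * d + 10) ≤ (a + 2) * (a + (d + 1 + 2)) := Nat.mul_le_mul (by omega) (by omega)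
        nlinarith
    subst ha
    -- 3 ∣ b
    have h3 : 3 ∣ d + 4 := by
      have e : 2 * d + 6 + (d + 1 + 2) = 3 * (d + 3) := by ring
      rw [e] at hD2
      have e2 : (d + 1 + 3) * (d + 1 + 2) = (d + 4) * (d + 3) := by ring
      rw [e2] at hD2
      exact Nat.dvd_of_mul_dvd_mul_right (by omega) hD2
    have h24 : (d + 5) ∣ 24 := by
      have h1 : (d + 5) ∣ (d + 4) * ((d + 3) * (d + 2) * (d + 1)) := by
        rw [← hm6]
        refine Dvd.dvd.mul_left ?_ 6
        exact (Dvd.intro_left 2 (by ring)).trans hm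
      have h2 : (d + 4) * ((d + 3) * (d + 2) * (d + 1)) = (d + 5) * (d * (d * d + 5 * d + 10)) + 24 := by ring
      rw [h2] at h1
      exact (Nat.dvd_add_right (dvd_mul_right _ _)).1 h1
    have h4' : d + 5 ≤ 24 := Nat.le_of_dvd (by norm_num) h24
    have h4 : d ≤ 19 := by omega
    obtain ⟨k, hk⟩ := h24
    obtain ⟨k', hk'⟩ := h3
    interval_cases d <;> omega
  · -- w = 2
    have hE : (a + 2) * (a + d + 3) = 3 * ((d + 4) * (d + 3)) := by nlinarith
    have hE2 : (a + 4) * (a + 1 + d) = (3 * d + 17) * (d + 2) := by nlinarith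
    have hmd : (a + 4) ∣ (3 * d + 17) * (d + 2) := Dvd.intro _ hE2
    have hm4 : (a + 4) ∣ (d + 4) * ((d + 3) * (d + 2) * (d + 1)) := by
      rw [← hm6]; exact Dvd.dvd.mul_left hm 6
    have g1 : Nat.gcd (a + 4) (d + 4) ∣ 10 := by
      have h1 : Nat.gcd (a + 4) (d + 4) ∣ (3 * d + 17) * (d + 2) + 10 * 1 := by
        have e : (3 * d + 17) * (d + 2) + 10 * 1 = (d + 4) * (3 * d + 11) := by ring
        rw [e]
        exact (Nat.gcd_dvd_right _ _).mul_right _
      have h2 : Nat.gcd (a + 4) (d + 4) ∣ (3 * d + 17) * (d + 2) := (Nat.gcd_dvd_left _ _).trans hmd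
      simpa using (Nat.dvd_add_right h2).1 h1
    have g2 : Nat.gcd (a + 4) (d + 3) ∣ 8 := by
      have h1 : Nat.gcd (a + 4) (d + 3) ∣ (3 * d + 17) * (d + 2) + 8 * 1 := by
        have e : (3 * d + 17) * (d + 2) + 8 * 1 = (d + 3) * (3 * d + 14) := by ring
        rw [e]
        exact (Nat.gcd_dvd_right _ _).mul_right _
      have h2 : Nat.gcd (a + 4) (d + 3) ∣ (3 * d + 17) * (d + 2) := (Nat.gcd_dvd_left _ _).trans hmd
      simpa using (Nat.dvd_add_right h2).1 h1
    have g3 : Nat.gcd (a + 4) (d + 1) ∣ 14 := by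
      have h1 : Nat.gcd (a + 4) (d + 1) ∣ (3 * d + 17) * (d + 2) := (Nat.gcd_dvd_left _ _).trans hmd
      have e : (3 * d + 17) * (d + 2) = (d + 1) * (3 * d + 20) + 14 := by ring
      rw [e] at h1
      exact (Nat.dvd_add_right ((Nat.gcd_dvd_right _ _).mul_right _)).1 h1
    set h := Nat.gcd (a + 4) (d + 2) with hh
    have hpos : 0 < h := Nat.gcd_pos_of_pos_left _ (by omega)
    obtain ⟨e1, he1⟩ : h ∣ a + 4 := Nat.gcd_dvd_left _ _
    obtain ⟨e2, he2⟩ : h ∣ d + 2 := Nat.gcd_dvd_right _ _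
    have hdiv : a + 4 ∣ 1120 * h := by
      have h0 : a + 4 ∣ Nat.gcd (a + 4) ((d + 4) * ((d + 3) * (d + 2) * (d + 1))) := Nat.dvd_gcd dvd_rfl hm4
      have h1 := Nat.gcd_mul_right_dvd_mul_gcd (a + 4) (d + 4) ((d + 3) * (d + 2) * (d + 1))
      have h2 := Nat.gcd_mul_right_dvd_mul_gcd (a + 4) ((d + 3) * (d + 2)) (d + 1)
      have h3 := Nat.gcd_mul_right_dvd_mul_gcd (a + 4) (d + 3) (d + 2)
      refine h0.trans (h1.trans ?_)
      have e : 1120 * h = 10 * (8 * h * 14) := by ring
      rw [e]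
      exact Nat.mul_dvd_mul g1 (h2.trans (Nat.mul_dvd_mul (h3.trans (Nat.mul_dvd_mul g2 dvd_rfl)) g3))
    have he1d : e1 ∣ 1120 := by
      rw [he1, mul_comm 1120 h] at hdiv
      exact Nat.dvd_of_mul_dvd_mul_left hpos hdiv
    have hlt : e2 < e1 := by
      have : h * e2 < h * e1 := by rw [← he1, ← he2]; omega
      exact Nat.lt_of_mul_lt_mul_left this
    have hkeyZ : (h : ℤ) * ((e1 : ℤ) * e1 + e1 * e2 - 3 * e2 * e2) = 5 * e1 + 11 * e2 := by
      have hE' : ((a : ℤ) + 2) * (a + d + 3) = 3 * ((d + 4) * (d + 3)) := by exact_mod_cast hE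
      have ha' : (a : ℤ) = h * e1 - 4 := by
        have : (a : ℤ) + 4 = h * e1 := by exact_mod_cast he1
        linarith
      have hd' : (d : ℤ) = h * e2 - 2 := by
        have : (d : ℤ) + 2 = h * e2 := by exact_mod_cast he2
        linarith
      rw [ha', hd'] at hE'
      have hne : (h : ℤ) ≠ 0 := by exact_mod_cast hpos.ne'
      apply mul_left_cancel₀ hne
      linarith
    have hDpos : 3 * e2 * e2 < e1 * e1 + e1 * e2 := by
      by_contra hcon
      push Not at hcon
      have h1 : ((e1 : ℤ) * e1 + e1 * e2 - 3 * e2 * e2) ≤ 0 := by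
        have : ((e1 * e1 + e1 * e2 : ℕ) : ℤ) ≤ ((3 * e2 * e2 : ℕ) : ℤ) := by exact_mod_cast hcon
        push_cast at this
        linarith
      have h2 : (h : ℤ) * ((e1 : ℤ) * e1 + e1 * e2 - 3 * e2 * e2) ≤ 0 :=
        mul_nonpos_of_nonneg_of_nonpos (by positivity) h1
      have h3 : (0 : ℤ) < 5 * e1 + 11 * e2 := by
        have : (0 : ℤ) < e1 := by exact_mod_cast (by omega : 0 < e1)
        positivity
      linarith
    have hkeyN : h * (e1 * e1 + e1 * e2 - 3 * e2 * e2) = 5 * e1 + 11 * e2 := by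
      have : ((h * (e1 * e1 + e1 * e2 - 3 * e2 * e2) : ℕ) : ℤ) = ((5 * e1 + 11 * e2 : ℕ) : ℤ) := by
        rw [Nat.cast_mul, Nat.cast_sub hDpos.le]
        push_cast
        linarith
      exact_mod_cast this
    have hDpos' : 0 < e1 * e1 + e1 * e2 - 3 * e2 * e2 := by omega
    have hdiveq : (5 * e1 + 11 * e2) / (e1 * e1 + e1 * e2 - 3 * e2 * e2) = h := by
      rw [← hkeyN]
      exact Nat.mul_div_cancel _ hDpos'
    have hcheck := finite_check e1 (mem_divisors_1120 he1d) e2 (List.mem_range.2 hlt) hDpos (by rw [hdiveq]; exact hkeyN)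
    simp only [hdiveq] at hcheck
    rw [← he1, ← he2] at hcheck
    rcases hcheck with h' | h' | ⟨h', h''⟩ | ⟨h', h''⟩
    · omega
    · omega
    · -- a = 10, b = 9
      have ha : a = 10 := by omega
      have hd : d = 5 := by omega
      subst ha; subst hd
      rcases prime_or_dvd hba hN (i := 6) (by norm_num) (by norm_num) with h6 | h6
      · exact not_prime_even _ (by norm_num) (by norm_num) h6
      · revert h6; decide
    · have ha : a = 208 := by omega
      subst ha
      revert hP1; norm_num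

end Cfsg.Agent.H49.Hall
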