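import Cfsg.Agent.H49.Hall.TransMain
import Cfsg.Agent.H49.Hall.NT

set_option autoImplicit false
set_option linter.style.haveILetI false
set_option linter.unusedSectionVars false

/-! The intransitive case and the structure theorem. -/

universe u v

namespace Cfsg.Agent.H49.Hall

variable {α : Type u} [Fintype α] [DecidableEq α] {M : Subgroup (Equiv.Perm α)} {π : Set ℕ}

/-- the stabilizer of a set given by a predicate -/
def stabP (P : α → Prop) : Subgroup (Equiv.Perm α) where
  carrier := {g | ∀ x, P (g x) ↔ P x}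
  mul_mem' := by
    intro g h hg hh x
    rw [Equiv.Perm.mul_apply, hg, hh]
  one_mem' := fun x => Iff.rfl
  inv_mem' := by
    intro g hg x
    have := hg (g⁻¹ x)
    rw [← this]; simp

theorem mem_stabP {P : α → Prop} {g : Equiv.Perm α} : g ∈ stabP P ↔ ∀ x, P (g x) ↔ P x := Iff.rfl

theorem card_stabP (P : α → Prop) [DecidablePred P] :
    Nat.card (stabP P) = (Fintype.card {x // P x}).factorial * (Fintype.card {x // ¬ P x}).factorial := by
  have h1 : (Equiv.Perm.subtypeCongrHom P).range = stabP P := by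
    ext g
    rw [MonoidHom.mem_range, mem_stabP]
    constructor
    · rintro ⟨⟨e1, e2⟩, rfl⟩ x
      show P (Equiv.Perm.subtypeCongr e1 e2 x) ↔ P x
      by_cases hx : P x
      · rw [Equiv.Perm.subtypeCongr.left_apply _ _ hx]
        exact ⟨fun _ => hx, fun _ => (e1 ⟨x, hx⟩).2⟩
      · rw [Equiv.Perm.subtypeCongr.right_apply _ _ hx]
        exact ⟨fun h => absurd h (e2 ⟨x, hx⟩).2, fun h => absurd h hx⟩
    · intro hg
      have hg' : ∀ x, ¬ P (g x) ↔ ¬ P x := fun x => not_congr (hg x)
      refine ⟨(g.subtypePerm hg, g.subtypePerm hg'), ?_⟩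
      ext x
      show Equiv.Perm.subtypeCongr (g.subtypePerm hg) (g.subtypePerm hg') x = g x
      by_cases hx : P x
      · rw [Equiv.Perm.subtypeCongr.left_apply _ _ hx]; rfl
      · rw [Equiv.Perm.subtypeCongr.right_apply _ _ hx]; rfl
  rw [← h1]
  rw [← Nat.card_congr (MonoidHom.ofInjective (Equiv.Perm.subtypeCongrHom_injective P)).toEquiv]
  rw [Nat.card_prod, Nat.card_perm, Nat.card_perm, Nat.card_eq_fintype_card, Nat.card_eq_fintype_card]

theorem card_add_card_compl (P : α → Prop) [DecidablePred P] :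
    Fintype.card {x // P x} + Fintype.card {x // ¬ P x} = Fintype.card α := by
  rw [Fintype.card_subtype_compl, Nat.add_sub_cancel']
  exact Fintype.card_subtype_le P

theorem index_stabP (P : α → Prop) [DecidablePred P] :
    (stabP P).index = (Fintype.card {x // P x} + Fintype.card {x // ¬ P x}).choose (Fintype.card {x // ¬ P x}) := by
  have h1 := (stabP P).card_mul_index
  rw [card_stabP, Nat.card_perm, Nat.card_eq_fintype_card, ← card_add_card_compl P,
    ← Nat.add_choose_mul_factorial_mul_factorial] at h1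
  have hpos : 0 < (Fintype.card {x // P x}).factorial * (Fintype.card {x // ¬ P x}).factorial := by positivity
  apply Nat.eq_of_mul_eq_mul_left hpos
  rw [h1]; ring

theorem index_eq_relIndex_alt {S : Subgroup (Equiv.Perm α)} (hodd : ∃ t ∈ S, Equiv.Perm.sign t = -1) :
    S.relIndex (alternatingGroup α) = S.index := by
  have htop : S ⊔ alternatingGroup α = ⊤ := by
    rw [eq_top_iff]
    intro g _
    rcases Int.units_eq_one_or (Equiv.Perm.sign g) with h1 | h1
    · exact Subgroup.mem_sup_right (Equiv.Perm.mem_alternatingGroup.2 h1)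
    · obtain ⟨t, ht, hts⟩ := hodd
      have h2 : t⁻¹ * g ∈ alternatingGroup α := by
        rw [Equiv.Perm.mem_alternatingGroup, map_mul, Equiv.Perm.sign_inv, hts, h1]; norm_num
      have h3 : g = t * (t⁻¹ * g) := by group
      rw [h3]
      exact Subgroup.mul_mem_sup ht h2
  have h1 := relIndex_sup_of_norm S (alternatingGroup α) (by
    intro h _ n hn
    rw [Equiv.Perm.mem_alternatingGroup] at hn ⊢
    rw [map_mul, map_mul, hn, Equiv.Perm.sign_inv, mul_one]
    exact Int.units_mul_self _)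
  rw [htop, Subgroup.relIndex_top_right] at h1
  exact h1.symm

theorem AH.not_dvd_index (h : AH π M) {S : Subgroup (Equiv.Perm α)} (hMS : M ≤ S)
    (hodd : ∃ t ∈ S, Equiv.Perm.sign t = -1) {p : ℕ} (hp : p.Prime) (hpπ : p ∈ π) : ¬ p ∣ S.index := by
  intro hd
  rw [← index_eq_relIndex_alt hodd] at hd
  exact h.hall p hp hpπ (hd.trans (Subgroup.relIndex_dvd_of_le_left _ hMS))

/-- restriction to an invariant subset. -/
theorem AH.restrict (h : AH π M) {P : α → Prop} [DecidablePred P] (hP : ∀ g ∈ M, ∀ x, P (g x) ↔ P x) :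
    AH π (M.comap (Equiv.Perm.ofSubtype : Equiv.Perm {x // P x} →* Equiv.Perm α)) := by
  have hinj : Function.Injective (Equiv.Perm.ofSubtype : Equiv.Perm {x // P x} →* Equiv.Perm α) :=
    Equiv.Perm.ofSubtype_injective
  refine ⟨fun p hp hd => h.pi p hp (hd.trans (Subgroup.card_comap_dvd_of_injective _ _ hinj)), ?_⟩
  intro p hp hpπ hd
  rw [Subgroup.relIndex_comap] at hd
  set N := (alternatingGroup {x // P x}).map (Equiv.Perm.ofSubtype : Equiv.Perm {x // P x} →* Equiv.Perm α) with hN
  have hmemN : ∀ n, n ∈ N ↔ (n ∈ alternatingGroup α ∧ ∀ x, ¬ P x → n x = x) := by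
    intro n
    rw [hN, Subgroup.mem_map]
    constructor
    · rintro ⟨τ, hτ, rfl⟩
      refine ⟨?_, fun x hx => Equiv.Perm.ofSubtype_apply_of_not_mem τ hx⟩
      rw [Equiv.Perm.mem_alternatingGroup] at hτ ⊢
      rw [Equiv.Perm.sign_ofSubtype, hτ]
    · rintro ⟨h1, h2⟩
      have h3 : ∀ x, P (n x) ↔ P x := by
        intro x
        by_cases hx : P x
        · refine ⟨fun _ => hx, fun _ => ?_⟩
          by_contra hc
          have h4 := h2 (n x) hc
          have h5 := n.injective h4
          rw [h5] at hc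
          exact hc hx
        · rw [h2 x hx]
      have h4 : Equiv.Perm.ofSubtype (n.subtypePerm h3) = n :=
        Equiv.Perm.ofSubtype_subtypePerm h3 (fun x hx => by
          by_contra hc
          exact hx (h2 x hc))
      refine ⟨n.subtypePerm h3, ?_, h4⟩
      rw [Equiv.Perm.mem_alternatingGroup] at h1 ⊢
      rw [← h4, Equiv.Perm.sign_ofSubtype] at h1
      exact h1
  apply h.hall p hp hpπ
  refine hd.trans (relIndex_dvd_of_norm M N (alternatingGroup α) (fun n hn => ((hmemN n).1 hn).1) ?_)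
  intro g hg n hn
  obtain ⟨hgM, hgA⟩ := Subgroup.mem_inf.1 hg
  rw [hmemN] at hn ⊢
  refine ⟨(alternatingGroup α).mul_mem ((alternatingGroup α).mul_mem hgA hn.1) ((alternatingGroup α).inv_mem hgA),
    fun x hx => ?_⟩
  have h1 : ¬ P (g⁻¹ x) := by
    have := hP g hgM (g⁻¹ x)
    rw [← this]; simpa using hx
  rw [Equiv.Perm.mul_apply, Equiv.Perm.mul_apply, hn.2 _ h1]
  simp

/-- The conclusion of the structure theorem. -/
def Concl (π : Set ℕ) (M : Subgroup (Equiv.Perm α)) : Prop :=
  ((Fintype.card α).Prime ∧ (∀ r : ℕ, r.Prime → r ≤ Fintype.card α → (r ∈ π ↔ r < Fintype.card α)) ∧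
      ∃ x : α, ∀ g ∈ M, g x = x) ∨
  (Fintype.card α = 7 ∧ (∀ r : ℕ, r.Prime → r ≤ Fintype.card α → (r ∈ π ↔ (r = 2 ∨ r = 3))) ∧
      ∃ A : Finset α, A.card = 4 ∧ ∀ g ∈ M, ∀ x, g x ∈ A ↔ x ∈ A) ∨
  (Fintype.card α = 8 ∧ (∀ r : ℕ, r.Prime → r ≤ Fintype.card α → (r ∈ π ↔ (r = 2 ∨ r = 3))) ∧
      ∃ A : Finset α, A.card = 4 ∧ ∀ g ∈ M, (∀ x, g x ∈ A ↔ x ∈ A) ∨ (∀ x, g x ∈ A ↔ x ∉ A))

/-- supports of cycles lie on one side. -/
theorem cycle_le_max {P : α → Prop} [DecidablePred P] {c : Equiv.Perm α} (hcy : c.IsCycle)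
    (hP : ∀ x, P (c x) ↔ P x) (hab : Fintype.card {x // ¬ P x} ≤ Fintype.card {x // P x}) :
    c.support.card ≤ Fintype.card {x // P x} := by
  obtain ⟨x, hx, _⟩ := id hcy
  have hmem : c ∈ stabP P := hP
  have h1 : ∀ y ∈ c.support, (P y ↔ P x) := by
    intro y hy
    obtain ⟨k, hk⟩ := hcy.exists_zpow_eq hx (Equiv.Perm.mem_support.1 hy)
    rw [← hk]
    exact (stabP P).zpow_mem hmem k x
  by_cases hPx : P x
  · have h2 : c.support ⊆ Finset.univ.filter (fun x => P x) := by
      intro y hy
      rw [Finset.mem_filter]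
      exact ⟨Finset.mem_univ _, (h1 y hy).2 hPx⟩
    rw [Fintype.card_subtype]
    exact Finset.card_le_card h2
  · have h2 : c.support ⊆ Finset.univ.filter (fun x => ¬ P x) := by
      intro y hy
      rw [Finset.mem_filter]
      exact ⟨Finset.mem_univ _, fun h => hPx ((h1 y hy).1 h)⟩
    refine le_trans ?_ hab
    rw [Fintype.card_subtype (fun x => ¬ P x)]
    exact Finset.card_le_card h2

/-- the intransitive case. -/
theorem intrans_case (h : AH π M) {P : α → Prop} [DecidablePred P] (hP : ∀ g ∈ M, ∀ x, P (g x) ↔ P x)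
    (hab : Fintype.card {x // ¬ P x} ≤ Fintype.card {x // P x}) (hb1 : 1 ≤ Fintype.card {x // ¬ P x})
    {r s t : ℕ} (hr : r.Prime) (hs : s.Prime) (ht : t.Prime) (hrs : r ≠ s)
    (hrπ : r ∈ π) (hsπ : s ∈ π) (htπ : t ∉ π) (hrn : r ≤ Fintype.card α) (hsn : s ≤ Fintype.card α)
    (htn : t ≤ Fintype.card α)
    (IH : ∀ t' : ℕ, t'.Prime → t' ∉ π → t' ≤ Fintype.card {x // P x} → r ≤ Fintype.card {x // P x} →
      s ≤ Fintype.card {x // P x} →
      Concl π (M.comap (Equiv.Perm.ofSubtype : Equiv.Perm {x // P x} →* Equiv.Perm α))) : Concl π M := by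
  have hn5 : 5 ≤ Fintype.card α := five_le hr hs ht hrs (fun e => htπ (e ▸ hrπ)) (fun e => htπ (e ▸ hsπ)) hrn hsn htn
  have hsum := card_add_card_compl P
  set a := Fintype.card {x // P x} with ha
  set b := Fintype.card {x // ¬ P x} with hb
  have ha3 : 3 ≤ a := by omega
  have hodd : ∀ p : ℕ, p.Prime → p ≠ 2 → p ∈ π → p ≤ Fintype.card α → p ≤ a := by
    intro p hp hp2 hpπ hpn
    obtain ⟨c, hc, hct⟩ := h.exists_pcycle hp hp2 hpπ hpn
    have hcy : c.IsCycle := Equiv.Perm.card_cycleType_eq_one.1 (by rw [hct]; simp)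
    have hsc : c.support.card = p := by rw [← Equiv.Perm.sum_cycleType, hct]; simp
    rw [← hsc]
    exact cycle_le_max hcy (hP c hc) hab
  have hle : ∀ p : ℕ, p.Prime → p ∈ π → p ≤ Fintype.card α → p ≤ a := by
    intro p hp hpπ hpn
    by_cases hp2 : p = 2
    · omega
    · exact hodd p hp hp2 hpπ hpn
  -- the index of the stabilizer
  have hidx : ∀ p : ℕ, p.Prime → p ∈ π → ¬ p ∣ (a + b).choose b := by
    intro p hp hpπ
    rw [ha, hb, ← index_stabP P]
    refine h.not_dvd_index (S := stabP P) (fun g hg => hP g hg) ?_ hp hpπ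
    obtain ⟨⟨x, hx⟩, ⟨y, hy⟩, hxy⟩ := Fintype.one_lt_card_iff.1 (by omega : 1 < Fintype.card {x // P x})
    have hxy' : x ≠ y := fun e => hxy (Subtype.ext e)
    refine ⟨Equiv.swap x y, ?_, Equiv.Perm.sign_swap hxy'⟩
    rw [mem_stabP]
    intro z
    by_cases h1 : z = x
    · subst h1; rw [Equiv.swap_apply_left]; exact ⟨fun _ => hx, fun _ => hy⟩
    · by_cases h2 : z = y
      · subst h2; rw [Equiv.swap_apply_right]; exact ⟨fun _ => hy, fun _ => hx⟩
      · rw [Equiv.swap_apply_of_ne_of_ne h1 h2]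
  by_cases hall : ∀ p : ℕ, p.Prime → p ≤ a → p ∈ π
  · have hNT : ∀ p : ℕ, p.Prime → p ≤ a → ¬ p ∣ (a + b).choose b := fun p hp hpa => hidx p hp (hall p hp hpa)
    rcases lt_or_eq_of_le hab with hlt | heq
    · rcases Nat.lt_or_ge b 2 with hb2 | hb2
      · -- b = 1
        left
        have hbe : b = 1 := by omega
        have htn' : t = Fintype.card α := by
          by_contra hne
          exact htπ (hall t ht (by omega))
        refine ⟨htn' ▸ ht, ?_, ?_⟩
        · intro q hq hqn
          constructor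
          · intro hqπ
            rcases lt_or_eq_of_le hqn with h1 | h1
            · exact h1
            · exfalso; apply htπ; rw [htn', ← h1]; exact hqπ
          · intro hqn
            exact hall q hq (by omega)
        · obtain ⟨⟨x, hx⟩, huniq⟩ := Fintype.card_eq_one_iff.1 (hb.symm.trans hbe)
          refine ⟨x, fun g hg => ?_⟩
          have h1 : ¬ P (g x) := by rw [hP g hg]; exact hx
          have h2 := huniq ⟨g x, h1⟩
          exact congrArg Subtype.val h2
      · right; left
        obtain ⟨ha4, hb3⟩ := nt_lemma hb2 hlt hNT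
        refine ⟨by omega, ?_, ?_⟩
        · intro q hq hqn
          constructor
          · intro hqπ
            by_cases hq2 : q = 2
            · exact Or.inl hq2
            · have h1 := hodd q hq hq2 hqπ hqn
              have h2 := hq.two_le
              have h3 : q ≠ 4 := by rintro rfl; exact absurd hq (by norm_num)
              omega
          · rintro (rfl | rfl)
            · exact hall 2 Nat.prime_two (by omega)
            · exact hall 3 Nat.prime_three (by omega)
        · refine ⟨Finset.univ.filter (fun x => P x), ?_, ?_⟩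
          · rw [← Fintype.card_subtype, ← ha, ha4]
          · intro g hg x
            simp only [Finset.mem_filter, Finset.mem_univ, true_and]
            exact hP g hg x
    · -- b = a
      exfalso
      apply hNT 2 Nat.prime_two (by omega)
      rw [heq, ← two_mul]
      exact Nat.two_dvd_centralBinom_of_one_le (by omega)
  · exfalso
    push Not at hall
    obtain ⟨t', ht', ht'a, ht'π⟩ := hall
    have hc := IH t' ht' ht'π ht'a (hle r hr hrπ hrn) (hle s hs hsπ hsn)
    have hra := hle r hr hrπ hrn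
    have hsa := hle s hs hsπ hsn
    have ha5 : 5 ≤ a := five_le hr hs ht' hrs (fun e => ht'π (e ▸ hrπ)) (fun e => ht'π (e ▸ hsπ)) hra hsa ht'a
    have hdiv : ∀ q : ℕ, q.Prime → q ∣ a + 1 → q ∈ π := by
      intro q hq hqa
      rcases hc with ⟨h1, h2, _⟩ | ⟨h1, h2, _⟩ | ⟨h1, h2, _⟩
      · rw [← ha] at h1 h2
        have haodd : a % 2 = 1 := by
          rcases h1.eq_two_or_odd with h3 | h3
          · omega
          · exact h3
        obtain ⟨c, hc⟩ := hqa
        have hc1 : c ≠ 1 := by
          rintro rfl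
          rw [mul_one] at hc
          rcases hq.eq_two_or_odd with h3 | h3 <;> omega
        have hc0 : c ≠ 0 := by rintro rfl; omega
        have h3 : q * 2 ≤ a + 1 := by rw [hc]; exact Nat.mul_le_mul_left _ (by omega)
        exact (h2 q hq (by omega)).2 (by omega)
      · rw [← ha] at h1 h2
        rw [h1] at hqa
        have h3 : q ∣ 2 ^ 3 := by simpa using hqa
        have h4 := (Nat.prime_dvd_prime_iff_eq hq Nat.prime_two).1 (hq.dvd_of_dvd_pow h3)
        exact (h2 q hq (by omega)).2 (Or.inl h4)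
      · rw [← ha] at h1 h2
        rw [h1] at hqa
        have h3 : q ∣ 3 ^ 2 := by simpa using hqa
        have h4 := (Nat.prime_dvd_prime_iff_eq hq Nat.prime_three).1 (hq.dvd_of_dvd_pow h3)
        exact (h2 q hq (by omega)).2 (Or.inr h4)
    have hcop : Nat.Coprime (a + 1) ((a + b).choose b) := by
      rw [Nat.coprime_iff_gcd_eq_one]
      by_contra hne
      obtain ⟨p, hpp, hpd⟩ := Nat.exists_prime_and_dvd hne
      exact hidx p hpp (hdiv p hpp (hpd.trans (Nat.gcd_dvd_left _ _))) (hpd.trans (Nat.gcd_dvd_right _ _))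
    obtain ⟨l, hl⟩ : ∃ l, b = l + 1 := ⟨b - 1, by omega⟩
    have hid := choose_identity a 0 l
    simp only [Nat.choose_zero_right, mul_one, zero_add, add_zero, Nat.choose_self] at hid
    rw [← hl] at hid
    have h1 : a + 1 ∣ b * (a + b).choose b := by rw [hid]; exact dvd_mul_right _ _
    have h2 := hcop.dvd_of_dvd_mul_right h1
    have h3 := Nat.le_of_dvd (by omega) h2
    omega

/-- The structure theorem (Hall, Thompson). -/
theorem structure_aux (n : ℕ) : ∀ (α : Type u) [Fintype α] [DecidableEq α] (M : Subgroup (Equiv.Perm α)),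
    Fintype.card α = n → AH π M → ∀ r s t : ℕ, r.Prime → s.Prime → t.Prime → r ≠ s → r ∈ π → s ∈ π → t ∉ π →
      r ≤ Fintype.card α → s ≤ Fintype.card α → t ≤ Fintype.card α → Concl π M := by
  induction n using Nat.strong_induction_on with
  | _ n IH =>
  intro α _ _ M hn h r s t hr hs ht hrs hrπ hsπ htπ hrn hsn htn
  by_cases htr : MulAction.IsPretransitive M α
  · exact Or.inr (Or.inr (trans_case h htr hr hs ht hrs hrπ hsπ htπ hrn hsn htn))
  · classical
    obtain ⟨x0, y0, hxy⟩ : ∃ x y : α, ∀ g ∈ M, g x ≠ y := by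
      by_contra hcon
      push Not at hcon
      apply htr
      refine ⟨fun x y => ?_⟩
      obtain ⟨g, hg, hgx⟩ := hcon x y
      exact ⟨⟨g, hg⟩, hgx⟩
    let P0 : α → Prop := fun x => ∃ g ∈ M, g x0 = x
    have hP0 : ∀ g ∈ M, ∀ x, P0 (g x) ↔ P0 x := by
      intro g hg x
      constructor
      · rintro ⟨k, hk, hkx⟩
        refine ⟨g⁻¹ * k, M.mul_mem (M.inv_mem hg) hk, ?_⟩
        rw [Equiv.Perm.mul_apply, hkx]; simp
      · rintro ⟨k, hk, hkx⟩
        exact ⟨g * k, M.mul_mem hg hk, by rw [Equiv.Perm.mul_apply, hkx]⟩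
    have hx0 : P0 x0 := ⟨1, M.one_mem, rfl⟩
    have hy0 : ¬ P0 y0 := by
      rintro ⟨g, hg, hgx⟩
      exact hxy g hg hgx
    have key : ∀ P : α → Prop, ∀ [DecidablePred P], (∀ g ∈ M, ∀ x, P (g x) ↔ P x) →
        Fintype.card {x // ¬ P x} ≤ Fintype.card {x // P x} → (∃ x, ¬ P x) → Concl π M := by
      intro P _ hP hab hne
      have hb1 : 1 ≤ Fintype.card {x // ¬ P x} := by
        obtain ⟨x, hx⟩ := hne
        exact Fintype.card_pos_iff.2 ⟨⟨x, hx⟩⟩
      refine intrans_case h hP hab hb1 hr hs ht hrs hrπ hsπ htπ hrn hsn htn ?_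
      intro t' ht' ht'π ht'a hra hsa
      have hsum := card_add_card_compl P
      exact IH (Fintype.card {x // P x}) (by omega) {x // P x} _ rfl (h.restrict hP) r s t' hr hs ht' hrs hrπ hsπ
        ht'π hra hsa ht'a
    rcases le_total (Fintype.card {x // ¬ P0 x}) (Fintype.card {x // P0 x}) with hle | hle
    · exact key P0 hP0 hle ⟨y0, hy0⟩
    · refine key (fun x => ¬ P0 x) (fun g hg x => not_congr (hP0 g hg x)) ?_ ⟨x0, fun hh => hh hx0⟩
      refine le_trans (le_of_eq ?_) hle
      apply Fintype.card_congr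
      exact Equiv.subtypeEquivRight (fun x => not_not)

theorem structure_thm (h : AH π M) {r s t : ℕ} (hr : r.Prime) (hs : s.Prime) (ht : t.Prime) (hrs : r ≠ s)
    (hrπ : r ∈ π) (hsπ : s ∈ π) (htπ : t ∉ π) (hrn : r ≤ Fintype.card α) (hsn : s ≤ Fintype.card α)
    (htn : t ≤ Fintype.card α) : Concl π M :=
  structure_aux _ α M rfl h r s t hr hs ht hrs hrπ hsπ htπ hrn hsn htn

end Cfsg.Agent.H49.Hall
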