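import Cfsg.Agent.H49.Hall.Basic

set_option autoImplicit false
set_option linter.style.haveILetI false
set_option linter.unusedSectionVars false

/-! Primitive groups containing special elements; blocks. -/

universe u

namespace Cfsg.Agent.H49.Hall

variable {α : Type u} [Fintype α] [DecidableEq α] {M : Subgroup (Equiv.Perm α)}

/-- Elementwise notion of block. -/
def Blk (M : Subgroup (Equiv.Perm α)) (B : Finset α) : Prop :=
  ∀ g ∈ M, ∀ x ∈ B, g x ∈ B → ∀ y ∈ B, g y ∈ B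

open scoped Pointwise

theorem Blk.isBlock {B : Finset α} (h : Blk M B) : MulAction.IsBlock M (B : Set α) := by
  rw [MulAction.isBlock_iff_smul_eq_of_mem]
  intro g a ha hga
  have h1 : g • (B : Set α) ⊆ B := by
    rintro _ ⟨y, hy, rfl⟩
    exact h g g.2 a ha hga y hy
  refine Set.eq_of_subset_of_ncard_le h1 ?_
  rw [Set.ncard_smul_set]

theorem blk_of_isBlock {B : Finset α} (h : MulAction.IsBlock M (B : Set α)) : Blk M B := by
  intro g hg x hx hgx y hy
  have h1 : (⟨g, hg⟩ : M) • (B : Set α) = B := h.smul_eq_of_mem hx hgx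
  have h2 : (⟨g, hg⟩ : M) • y ∈ (⟨g, hg⟩ : M) • (B : Set α) := Set.smul_mem_smul_set hy
  rw [h1] at h2
  exact h2

theorem Blk.eq_univ_of_prim {B : Finset α} (h : Blk M B) (hM : MulAction.IsPreprimitive M α) (hB : 2 ≤ B.card) :
    B = Finset.univ := by
  have h1 := hM.isTrivialBlock_of_isBlock h.isBlock
  rcases h1 with h1 | h1
  · exfalso
    obtain ⟨x, hx, y, hy, hxy⟩ := Finset.one_lt_card.1 (by omega : 1 < B.card)
    exact hxy (h1 hx hy)
  · exact_mod_cast h1

/-- a primitive group containing a `p`-cycle, `p < n`, has even order. -/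
theorem two_dvd_of_prim_cycle (hprim : MulAction.IsPreprimitive M α) {c : Equiv.Perm α} (hc : c ∈ M) {p : ℕ}
    (hct : c.cycleType = {p}) (hpn : p < Fintype.card α) : 2 ∣ Nat.card M := by
  have hcy : c.IsCycle := Equiv.Perm.card_cycleType_eq_one.1 (by rw [hct]; simp)
  have hsc : c.support.card = p := by rw [← Equiv.Perm.sum_cycleType, hct]; simp
  have hp2 : 2 ≤ p := by rw [← hsc]; exact hcy.two_le_card_support
  have hncard : ((c.support : Set α)ᶜ).ncard = (Fintype.card α - p - 1) + 1 := by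
    rw [← Finset.coe_compl, Set.ncard_coe_finset, Finset.card_compl, hsc]
    omega
  have h2 : MulAction.IsMultiplyPretransitive M α 2 := by
    apply MulAction.IsPreprimitive.is_two_pretransitive hprim hncard
    · rw [Nat.card_eq_fintype_card]; omega
    · exact Equiv.Perm.isPretransitive_of_isCycle_mem hcy hc
  rw [MulAction.is_two_pretransitive_iff] at h2
  obtain ⟨a, b, hab⟩ := Fintype.one_lt_card_iff.1 (by omega : 1 < Fintype.card α)
  obtain ⟨g, hg1, hg2⟩ := h2 hab hab.symm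
  refine Dvd.dvd.trans ?_ (orderOf_dvd_natCard g)
  by_contra hodd
  have hpow : ∀ k : ℕ, g ^ (2 * k) • a = a := by
    intro k
    induction k with
    | zero => simp
    | succ k ih =>
      rw [show 2 * (k + 1) = 2 * k + 1 + 1 by ring, pow_succ, pow_succ, mul_smul, mul_smul, hg1, hg2, ih]
  have h3 : orderOf g = 2 * (orderOf g / 2) + 1 := by omega
  have h4 : g ^ orderOf g • a = a := by
    rw [pow_orderOf_eq_one, one_smul]
  rw [h3, pow_succ', mul_smul, hpow, hg1] at h4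
  exact hab h4.symm

theorem prime_dvd_alt {p : ℕ} (hp : p.Prime) (h4 : 4 ≤ Fintype.card α) (hpn : p ≤ Fintype.card α) :
    p ∣ Nat.card (alternatingGroup α) := by
  haveI : Nontrivial α := Fintype.one_lt_card_iff_nontrivial.1 (by omega)
  have h1 := two_mul_nat_card_alternatingGroup (α := α)
  rw [Nat.card_perm, Nat.card_eq_fintype_card (α := α)] at h1
  have h2 : p ∣ (Fintype.card α).factorial := (Nat.Prime.dvd_factorial hp).2 hpn
  by_cases hp2 : p = 2
  · subst hp2
    have h3 : Nat.factorial 4 ∣ (Fintype.card α).factorial := Nat.factorial_dvd_factorial h4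
    have h5 : Nat.factorial 4 = 24 := rfl
    rw [h5, ← h1] at h3
    omega
  · rw [← h1] at h2
    rcases (Nat.Prime.dvd_mul hp).1 h2 with h | h
    · exfalso
      exact hp2 ((Nat.prime_dvd_prime_iff_eq hp Nat.prime_two).1 h)
    · exact h

/-- a primitive group containing a 3-cycle. -/
theorem prime_dvd_of_prim_three (hprim : MulAction.IsPreprimitive M α) {c : Equiv.Perm α} (hc : c ∈ M)
    (hct : c.cycleType = {3}) (h4 : 4 ≤ Fintype.card α) {p : ℕ} (hp : p.Prime) (hpn : p ≤ Fintype.card α) :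
    p ∣ Nat.card M := by
  have h1 : alternatingGroup α ≤ M := Equiv.Perm.alternatingGroup_le_of_isPreprimitive_of_isThreeCycle_mem hprim
    (show c.IsThreeCycle from hct) hc
  exact (prime_dvd_alt hp h4 hpn).trans (Subgroup.card_dvd_of_le h1)

theorem three_dvd_of_cycle3 {h : Equiv.Perm α} {a b c : α} (hab : a ≠ b) (hac : a ≠ c)
    (h1 : h a = b) (h2 : h b = c) (h3 : h c = a) : 3 ∣ orderOf h := by
  have hpow : ∀ k : ℕ, (h ^ (3 * k)) a = a := by
    intro k
    induction k with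
    | zero => simp
    | succ k ih =>
      rw [show 3 * (k + 1) = 3 * k + 1 + 1 + 1 by ring, pow_succ, pow_succ, pow_succ, Equiv.Perm.mul_apply,
        Equiv.Perm.mul_apply, Equiv.Perm.mul_apply, h1, h2, h3, ih]
  have h0 : (h ^ orderOf h) a = a := by rw [pow_orderOf_eq_one]; rfl
  by_contra hcon
  have h4 : orderOf h % 3 = 1 ∨ orderOf h % 3 = 2 := by omega
  rcases h4 with h4 | h4
  · have h5 : orderOf h = 3 * (orderOf h / 3) + 1 := by omega
    rw [h5, pow_succ', Equiv.Perm.mul_apply, hpow, h1] at h0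
    exact hab h0.symm
  · have h5 : orderOf h = 3 * (orderOf h / 3) + 2 := by omega
    rw [h5, add_comm, pow_add, Equiv.Perm.mul_apply, hpow, pow_two, Equiv.Perm.mul_apply, h1, h2] at h0
    exact hac h0.symm

/-- `Δ` is a 4-set such that any two of its points are interchanged by an element of `M` supported in `Δ`. -/
def V4 (M : Subgroup (Equiv.Perm α)) (Δ : Finset α) : Prop :=
  ∀ x ∈ Δ, ∀ y ∈ Δ, x ≠ y → ∃ g ∈ M, g x = y ∧ g y = x ∧ ∀ z, z ∉ Δ → g z = z

theorem V4.translate {Δ : Finset α} (h : V4 M Δ) {g : Equiv.Perm α} (hg : g ∈ M) :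
    V4 M (Δ.map g.toEmbedding) := by
  intro x hx y hy hxy
  simp only [Finset.mem_map, Equiv.coe_toEmbedding] at hx hy
  obtain ⟨x, hx, rfl⟩ := hx
  obtain ⟨y, hy, rfl⟩ := hy
  obtain ⟨t, ht, h1, h2, h3⟩ := h x hx y hy (fun e => hxy (by rw [e]))
  refine ⟨g * t * g⁻¹, M.mul_mem (M.mul_mem hg ht) (M.inv_mem hg), ?_, ?_, ?_⟩
  · simp [h1]
  · simp [h2]
  · intro z hz
    have : g⁻¹ z ∉ Δ := by
      intro hmem
      apply hz
      simp only [Finset.mem_map, Equiv.coe_toEmbedding]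
      exact ⟨g⁻¹ z, hmem, by simp⟩
    rw [Equiv.Perm.mul_apply, Equiv.Perm.mul_apply, h3 _ this]
    simp

/-- if `M` has no elements of order 3 then V4 sets are blocks. -/
theorem V4.blk {Δ : Finset α} (h : V4 M Δ) (h3 : ¬ 3 ∣ Nat.card M) : Blk M Δ := by
  intro g hg z' hz' hgz' y hy
  by_contra hcon
  set Δ' := Δ.map g.toEmbedding with hΔ'
  have hV' : V4 M Δ' := h.translate hg
  -- z ∈ Δ ∩ Δ'
  set z := g z' with hz
  have hzΔ' : z ∈ Δ' := Finset.mem_map.2 ⟨z', hz', rfl⟩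
  set w' := g y with hw'
  have hw'Δ' : w' ∈ Δ' := Finset.mem_map.2 ⟨y, hy, rfl⟩
  -- w ∈ Δ \ Δ'
  obtain ⟨w, hwΔ, hwΔ'⟩ : ∃ w ∈ Δ, w ∉ Δ' := by
    by_contra hno
    push Not at hno
    have h1 : Δ ⊆ Δ' := hno
    have h2 : Δ = Δ' := Finset.eq_of_subset_of_card_le h1 (by rw [hΔ', Finset.card_map])
    exact hcon (h2 ▸ hw'Δ')
  have hzw : z ≠ w := fun e => hwΔ' (e ▸ hzΔ')
  have hzw' : z ≠ w' := fun e => hcon (e ▸ hgz')
  have hww' : w ≠ w' := fun e => hcon (e ▸ hwΔ)
  obtain ⟨s, hs, s1, s2, s3⟩ := h z hgz' w hwΔ hzw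
  obtain ⟨t, ht, t1, t2, t3⟩ := hV' z hzΔ' w' hw'Δ' hzw'
  have e1 : (s * t) w' = w := by rw [Equiv.Perm.mul_apply, t2, s1]
  have e2 : (s * t) w = z := by rw [Equiv.Perm.mul_apply, t3 w hwΔ', s2]
  have e3 : (s * t) z = w' := by rw [Equiv.Perm.mul_apply, t1, s3 w' hcon]
  have h4 := three_dvd_of_cycle3 hww'.symm hzw'.symm e1 e2 e3
  apply h3
  have h5 : orderOf (⟨s * t, M.mul_mem hs ht⟩ : M) = orderOf (s * t) := Subgroup.orderOf_mk _ _
  rw [← h5] at h4
  exact h4.trans (orderOf_dvd_natCard _)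

/-- existence of V4-sets. -/
theorem AH.exists_V4 {π : Set ℕ} (h : AH π M) (h2 : 2 ∈ π) (h4 : 4 ≤ Fintype.card α) :
    ∃ Δ : Finset α, Δ.card = 4 ∧ V4 M Δ := by
  obtain ⟨f⟩ : Nonempty (Fin 4 ↪ α) := by
    rw [Function.Embedding.nonempty_iff_card_le]; simpa using h4
  set x0 := f 0 with hx0
  set x1 := f 1 with hx1
  set x2 := f 2 with hx2
  set x3 := f 3 with hx3
  have n01 : x0 ≠ x1 := fun e => absurd (f.injective e) (by decide)
  have n02 : x0 ≠ x2 := fun e => absurd (f.injective e) (by decide)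
  have n03 : x0 ≠ x3 := fun e => absurd (f.injective e) (by decide)
  have n12 : x1 ≠ x2 := fun e => absurd (f.injective e) (by decide)
  have n13 : x1 ≠ x3 := fun e => absurd (f.injective e) (by decide)
  have n23 : x2 ≠ x3 := fun e => absurd (f.injective e) (by decide)
  set u : Equiv.Perm α := Equiv.swap x0 x1 * Equiv.swap x2 x3 with hu
  set v : Equiv.Perm α := Equiv.swap x0 x2 * Equiv.swap x1 x3 with hv
  have u0 : u x0 = x1 := by simp [hu, Equiv.swap_apply_of_ne_of_ne n02 n03]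
  have u1 : u x1 = x0 := by simp [hu, Equiv.swap_apply_of_ne_of_ne n12 n13]
  have u2 : u x2 = x3 := by simp [hu, Equiv.swap_apply_of_ne_of_ne n03.symm n13.symm]
  have u3 : u x3 = x2 := by simp [hu, Equiv.swap_apply_of_ne_of_ne n02.symm n12.symm]
  have uz : ∀ z, z ≠ x0 → z ≠ x1 → z ≠ x2 → z ≠ x3 → u z = z := by
    intro z h0 h1 h2 h3
    simp [hu, Equiv.swap_apply_of_ne_of_ne h2 h3, Equiv.swap_apply_of_ne_of_ne h0 h1]
  have v0 : v x0 = x2 := by simp [hv, Equiv.swap_apply_of_ne_of_ne n01 n03]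
  have v2 : v x2 = x0 := by simp [hv, Equiv.swap_apply_of_ne_of_ne n12.symm n23]
  have v1 : v x1 = x3 := by simp [hv, Equiv.swap_apply_of_ne_of_ne n03.symm n23.symm]
  have v3 : v x3 = x1 := by simp [hv, Equiv.swap_apply_of_ne_of_ne n01.symm n12]
  have vz : ∀ z, z ≠ x0 → z ≠ x1 → z ≠ x2 → z ≠ x3 → v z = z := by
    intro z h0 h1 h2 h3
    simp [hv, Equiv.swap_apply_of_ne_of_ne h1 h3, Equiv.swap_apply_of_ne_of_ne h0 h2]
  have four : ∀ z, z = x0 ∨ z = x1 ∨ z = x2 ∨ z = x3 ∨ (z ≠ x0 ∧ z ≠ x1 ∧ z ≠ x2 ∧ z ≠ x3) := by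
    intro z; tauto
  have huu : u ^ 2 = 1 := by
    ext z
    rw [pow_two, Equiv.Perm.mul_apply]
    rcases four z with rfl | rfl | rfl | rfl | ⟨h0, h1, h2, h3⟩
    · rw [u0, u1]; rfl
    · rw [u1, u0]; rfl
    · rw [u2, u3]; rfl
    · rw [u3, u2]; rfl
    · rw [uz z h0 h1 h2 h3, uz z h0 h1 h2 h3]; rfl
  have hvv : v ^ 2 = 1 := by
    ext z
    rw [pow_two, Equiv.Perm.mul_apply]
    rcases four z with rfl | rfl | rfl | rfl | ⟨h0, h1, h2, h3⟩
    · rw [v0, v2]; rfl
    · rw [v1, v3]; rfl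
    · rw [v2, v0]; rfl
    · rw [v3, v1]; rfl
    · rw [vz z h0 h1 h2 h3, vz z h0 h1 h2 h3]; rfl
  have huv : u * v = v * u := by
    ext z
    show u (v z) = v (u z)
    rcases four z with rfl | rfl | rfl | rfl | ⟨h0, h1, h2, h3⟩
    · rw [v0, u2, u0, v1]
    · rw [v1, u3, u1, v0]
    · rw [v2, u0, u2, v3]
    · rw [v3, u1, u3, v2]
    · rw [uz z h0 h1 h2 h3, vz z h0 h1 h2 h3, uz z h0 h1 h2 h3]
  set P : Subgroup (Equiv.Perm α) := Subgroup.closure {u, v} with hP
  have hPexp : ∀ x ∈ P, x ^ 2 = 1 := by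
    intro x hx
    refine closure_pow_eq_one (S := {u, v}) ?_ ?_ hx
    · intro x hx y hy
      simp only [Set.mem_insert_iff, Set.mem_singleton_iff] at hx hy
      rcases hx with rfl | rfl <;> rcases hy with rfl | rfl
      · rfl
      · exact huv
      · exact huv.symm
      · rfl
    · intro x hx
      simp only [Set.mem_insert_iff, Set.mem_singleton_iff] at hx
      rcases hx with rfl | rfl
      · exact huu
      · exact hvv
  have hPp : IsPGroup 2 P := by
    rintro ⟨x, hx⟩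
    refine ⟨1, ?_⟩
    ext1
    simpa using hPexp x hx
  have hPA : P ≤ alternatingGroup α := by
    rw [hP, Subgroup.closure_le]
    intro x hx
    simp only [Set.mem_insert_iff, Set.mem_singleton_iff] at hx
    rcases hx with rfl | rfl
    · show u ∈ alternatingGroup α
      rw [Equiv.Perm.mem_alternatingGroup, hu, map_mul, Equiv.Perm.sign_swap n01, Equiv.Perm.sign_swap n23]
      norm_num
    · show v ∈ alternatingGroup α
      rw [Equiv.Perm.mem_alternatingGroup, hv, map_mul, Equiv.Perm.sign_swap n02, Equiv.Perm.sign_swap n13]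
      norm_num
  obtain ⟨g, hg⟩ := h.exists_conj Nat.prime_two h2 P hPp hPA
  have huP : u ∈ P := Subgroup.subset_closure (by simp)
  have hvP : v ∈ P := Subgroup.subset_closure (by simp)
  have hV : ∀ t ∈ P, ∀ x y : α, t x = y → t y = x → (∀ z, z ≠ x0 → z ≠ x1 → z ≠ x2 → z ≠ x3 → t z = z) →
      ∃ s ∈ M, s (g x) = g y ∧ s (g y) = g x ∧
        ∀ z, z ∉ (({x0, x1, x2, x3} : Finset α).map g.toEmbedding) → s z = z := by
    intro t ht x y hxy hyx hz
    refine ⟨g * t * g⁻¹, hg t ht, by simp [hxy], by simp [hyx], ?_⟩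
    intro z hzn
    have h1 : g⁻¹ z ∉ ({x0, x1, x2, x3} : Finset α) := by
      intro hmem
      exact hzn (Finset.mem_map.2 ⟨g⁻¹ z, hmem, by simp⟩)
    simp only [Finset.mem_insert, Finset.mem_singleton, not_or] at h1
    rw [Equiv.Perm.mul_apply, Equiv.Perm.mul_apply, hz _ h1.1 h1.2.1 h1.2.2.1 h1.2.2.2]
    simp
  refine ⟨({x0, x1, x2, x3} : Finset α).map g.toEmbedding, ?_, ?_⟩
  · rw [Finset.card_map]
    rw [Finset.card_insert_of_notMem (by simp [n01, n02, n03]), Finset.card_insert_of_notMem (by simp [n12, n13]),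
      Finset.card_insert_of_notMem (by simp [n23]), Finset.card_singleton]
  · intro x hx y hy hxy
    simp only [Finset.mem_map, Equiv.coe_toEmbedding] at hx hy
    obtain ⟨x, hx, rfl⟩ := hx
    obtain ⟨y, hy, rfl⟩ := hy
    have hxy' : x ≠ y := fun e => hxy (by rw [e])
    have huvP : u * v ∈ P := P.mul_mem huP hvP
    have w0 : (u * v) x0 = x3 := by rw [Equiv.Perm.mul_apply, v0, u2]
    have w1 : (u * v) x1 = x2 := by rw [Equiv.Perm.mul_apply, v1, u3]
    have w2 : (u * v) x2 = x1 := by rw [Equiv.Perm.mul_apply, v2, u0]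
    have w3 : (u * v) x3 = x0 := by rw [Equiv.Perm.mul_apply, v3, u1]
    have wz : ∀ z, z ≠ x0 → z ≠ x1 → z ≠ x2 → z ≠ x3 → (u * v) z = z := by
      intro z h0 h1 h2 h3
      rw [Equiv.Perm.mul_apply, vz z h0 h1 h2 h3, uz z h0 h1 h2 h3]
    simp only [Finset.mem_insert, Finset.mem_singleton] at hx hy
    rcases hx with rfl | rfl | rfl | rfl <;> rcases hy with rfl | rfl | rfl | rfl
    · exact absurd rfl hxy'
    · exact hV u huP _ _ u0 u1 uz
    · exact hV v hvP _ _ v0 v2 vz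
    · exact hV _ huvP _ _ w0 w3 wz
    · exact hV u huP _ _ u1 u0 uz
    · exact absurd rfl hxy'
    · exact hV _ huvP _ _ w1 w2 wz
    · exact hV v hvP _ _ v1 v3 vz
    · exact hV v hvP _ _ v2 v0 vz
    · exact hV _ huvP _ _ w2 w1 wz
    · exact absurd rfl hxy'
    · exact hV u huP _ _ u2 u3 uz
    · exact hV _ huvP _ _ w3 w0 wz
    · exact hV v hvP _ _ v3 v1 vz
    · exact hV u huP _ _ u3 u2 uz
    · exact absurd rfl hxy'

end Cfsg.Agent.H49.Hall
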