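import Cfsg.Agent.H49.Hall.Imp

set_option autoImplicit false
set_option linter.style.haveILetI false
set_option linter.unusedSectionVars false

/-! The transitive case of the Hall–Thompson theorem. -/

universe u v

namespace Cfsg.Agent.H49.Hall

variable {α : Type u} [Fintype α] [DecidableEq α] {M : Subgroup (Equiv.Perm α)} {π : Set ℕ}
variable {ι : Type v} [Fintype ι] [DecidableEq ι] {f : α → ι} {a : ℕ}

theorem five_le {n r s t : ℕ} (hr : r.Prime) (hs : s.Prime) (ht : t.Prime) (hrs : r ≠ s) (hrt : r ≠ t)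
    (hst : s ≠ t) (hrn : r ≤ n) (hsn : s ≤ n) (htn : t ≤ n) : 5 ≤ n := by
  by_contra hcon
  have aux : ∀ x : ℕ, x.Prime → x ≤ n → x = 2 ∨ x = 3 := by
    intro x hx hxn
    have h1 : x ≤ 4 := by omega
    have h2 := hx.two_le
    interval_cases x
    · exact Or.inl rfl
    · exact Or.inr rfl
    · exact absurd hx (by norm_num)
  rcases aux r hr hrn with h1 | h1 <;> rcases aux s hs hsn with h2 | h2 <;> rcases aux t ht htn with h3 | h3 <;>
    omega

theorem dvd_of_trans (htr : MulAction.IsPretransitive M α) {s : ℕ} (hs : s ∣ Fintype.card α)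
    (hne : 0 < Fintype.card α) : s ∣ Nat.card M := by
  obtain ⟨x⟩ := Fintype.card_pos_iff.1 hne
  have h1 := MulAction.index_stabilizer_of_transitive M x
  rw [Nat.card_eq_fintype_card] at h1
  rw [← h1] at hs
  exact hs.trans (Subgroup.index_dvd_card _)

/-- restricting a cycle to a fiber. -/
theorem Imp.exists_restrict_cycle (h : Imp M f a) {c : Equiv.Perm α} (hc : c ∈ M) {p : ℕ} (hct : c.cycleType = {p})
    (hfix : ∀ x, f (c x) = f x) : ∃ i, ∃ τ ∈ indFib M f i, τ.cycleType = {p} := by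
  have hcy : c.IsCycle := Equiv.Perm.card_cycleType_eq_one.1 (by rw [hct]; simp)
  obtain ⟨i, hi⟩ := h.cycle_fiber hcy hfix
  have h1 : ∀ y, f (c y) = i ↔ f y = i := fun y => by rw [hfix]
  refine ⟨i, c.subtypePerm h1, ⟨c, hc, fun y => rfl⟩, ?_⟩
  have h2 : Equiv.Perm.ofSubtype (c.subtypePerm h1) = c :=
    Equiv.Perm.ofSubtype_subtypePerm h1 (fun x hx => hi x (Equiv.Perm.mem_support.2 hx))
  rw [← hct]
  conv_rhs => rw [← h2]
  rw [Equiv.Perm.cycleType_ofSubtype]

/-- odd primes of `π`: cycles are inside blocks. -/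
theorem Imp.odd_prime (h : AH π M) (hI : Imp M f a) (ha : 2 ≤ a) {p : ℕ} (hp : p.Prime) (hp2 : p ≠ 2)
    (hpπ : p ∈ π) (hpn : p ≤ Fintype.card α) :
    (∀ c ∈ M, Equiv.Perm.cycleType c = {p} → ∀ x, f (c x) = f x) ∧ p ≤ a := by
  have h1 : ∀ c ∈ M, Equiv.Perm.cycleType c = {p} → ∀ x, f (c x) = f x := by
    intro c hc hct x
    by_contra hcon
    have hcy : c.IsCycle := Equiv.Perm.card_cycleType_eq_one.1 (by rw [hct]; simp)
    have hsc : c.support.card = p := by rw [← Equiv.Perm.sum_cycleType, hct]; simp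
    have h2 := hI.dvd_of_cycle hc hcy hcon
    have h3 := hI.two_mul_le hc hcon
    rw [hsc] at h2 h3
    rcases (Nat.dvd_prime hp).1 h2 with h4 | h4 <;> omega
  refine ⟨h1, ?_⟩
  obtain ⟨c, hc, hct⟩ := h.exists_pcycle hp hp2 hpπ hpn
  have hcy : c.IsCycle := Equiv.Perm.card_cycleType_eq_one.1 (by rw [hct]; simp)
  have hsc : c.support.card = p := by rw [← Equiv.Perm.sum_cycleType, hct]; simp
  obtain ⟨i, hi⟩ := hI.cycle_fiber hcy (h1 c hc hct)
  rw [← hsc, ← hI.fib i]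
  apply Finset.card_le_card
  intro x hx
  rw [Finset.mem_filter]
  exact ⟨Finset.mem_univ _, hi x hx⟩

theorem dvd_of_mod_lt {a b q : ℕ} (hdvd : q ∣ b * a) (h : b * (a % q) < q) (hb : 0 < b) : q ∣ a := by
  have h1 : b * a = q * (b * (a / q)) + b * (a % q) := by
    conv_lhs => rw [← Nat.div_add_mod a q]
    ring
  rw [h1] at hdvd
  have h2 : q ∣ b * (a % q) := (Nat.dvd_add_right (dvd_mul_right _ _)).1 hdvd
  have h3 : b * (a % q) = 0 := Nat.eq_zero_of_dvd_of_lt h2 h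
  rcases Nat.mul_eq_zero.1 h3 with h4 | h4
  · omega
  · exact Nat.dvd_of_mod_eq_zero h4

theorem Imp.pow_of_odd (h : AH π M) (hI : Imp M f a) (ha : 2 ≤ a) {s : ℕ} (hs : s.Prime) (hs2 : s ≠ 2)
    (hsπ : s ∈ π) (hsb : s ∣ Fintype.card ι) (hb : 0 < Fintype.card ι) : ∃ i, a = s ^ i := by
  obtain ⟨i, m, hm, ham⟩ := Nat.exists_eq_pow_mul_and_not_dvd (by omega : a ≠ 0) s hs.ne_one
  set q := s ^ (i + 1) with hq
  have hqpos : 0 < q := Nat.pow_pos hs.pos
  have hdvd : q ∣ Fintype.card ι * a := by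
    rw [hq, ham, pow_succ, mul_comm (s ^ i) s]
    exact (Nat.mul_dvd_mul hsb (dvd_mul_right _ _))
  have hcop : ∀ j, m ∣ s ^ j → m = 1 := by
    intro j hj
    have h1 : Nat.Coprime m (s ^ j) := (((Nat.Prime.coprime_iff_not_dvd hs).2 hm).symm).pow_right j
    exact Nat.Coprime.eq_one_of_dvd h1 hj
  obtain ⟨c, h1, h2, h3⟩ := h.exists_cycles_odd (e := i + 1) (k := Fintype.card α / q) hs hs2 hsπ (by omega)
    (Nat.div_mul_le_self _ _)
  by_cases hfix : ∀ j x, f (c j x) = f x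
  · exfalso
    have h4 := hI.cover hqpos h1 h2 hfix
    rw [hI.card] at h4
    have h5 := mod_lt_of_cover hqpos h4
    have h6 := dvd_of_mod_lt hdvd h5 hb
    rw [hq, ham, pow_succ] at h6
    exact hm (Nat.dvd_of_mul_dvd_mul_left (Nat.pow_pos hs.pos) h6)
  · push Not at hfix
    obtain ⟨j, x, hx⟩ := hfix
    have hcy : (c j).IsCycle := Equiv.Perm.card_cycleType_eq_one.1 (by rw [h1]; simp)
    have hsc : (c j).support.card = q := by rw [← Equiv.Perm.sum_cycleType, h1]; simp [hq]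
    have h4 := hI.dvd_of_cycle (h3 j) hcy hx
    rw [hsc] at h4
    have h5 : m ∣ q := (Dvd.intro_left _ ham.symm).trans h4
    have h6 := hcop _ h5
    exact ⟨i, by rw [ham, h6, mul_one]⟩

/-- disjoint cycles of length `q = 2 ^ e < a`. -/
theorem Imp.two_cover (h : AH π M) (hI : Imp M f a) (h2π : 2 ∈ π) {e : ℕ} (he : 1 ≤ e) (hlt : 2 ^ e < a)
    (hn : 2 * 2 ^ e ≤ Fintype.card α) : Fintype.card ι * (a % 2 ^ e) < 2 ^ e := by
  have hqpos : 0 < 2 ^ e := Nat.pow_pos (by norm_num)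
  obtain ⟨c, h1, h2, h3⟩ := h.exists_cycles (e := e) (k := Fintype.card α / 2 ^ e) Nat.prime_two h2π he
    (Nat.div_mul_le_self _ _)
  have hk : 2 ≤ Fintype.card α / 2 ^ e := (Nat.le_div_iff_mul_le hqpos).2 hn
  have hsc : ∀ j, (c j).support.card = 2 ^ e := fun j => by rw [← Equiv.Perm.sum_cycleType, h1]; simp
  have hfix : ∀ j x, f (c j x) = f x := by
    intro j x
    obtain ⟨j', hj'⟩ : ∃ j' : Fin (Fintype.card α / 2 ^ e), j' ≠ j := by
      haveI : Nontrivial (Fin (Fintype.card α / 2 ^ e)) := Fin.nontrivial_iff_two_le.2 hk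
      exact exists_ne j
    have h4 : (c j * c j').support.card < 2 * a := by
      have h5 := Finset.card_le_card (Equiv.Perm.support_mul_le (c j) (c j'))
      have h6 : (c j).support ⊔ (c j').support = (c j).support ∪ (c j').support := rfl
      rw [h6] at h5
      have h7 := Finset.card_union_le (c j).support (c j').support
      rw [hsc, hsc] at h7
      omega
    have h5 := hI.fix_of_lt (h3 j j') h4 x
    rcases h2 j j' hj'.symm x with h6 | h6
    · rw [h6]
    · rw [Equiv.Perm.mul_apply, h6] at h5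
      exact h5
  have h4 := hI.cover hqpos h1 h2 hfix
  rw [hI.card] at h4
  exact mod_lt_of_cover hqpos h4

theorem odd_cover (h : AH π M) (hI : Imp M f a) {s e : ℕ} (hs : s.Prime) (hs2 : s ≠ 2) (hsπ : s ∈ π) (he : 1 ≤ e)
    (hfix : ∀ c ∈ M, Equiv.Perm.cycleType c = {s ^ e} → ∀ x, f (c x) = f x) :
    Fintype.card ι * (a % s ^ e) < s ^ e := by
  have hqpos : 0 < s ^ e := Nat.pow_pos hs.pos
  obtain ⟨c, h1, h2, h3⟩ := h.exists_cycles_odd (e := e) (k := Fintype.card α / s ^ e) hs hs2 hsπ he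
    (Nat.div_mul_le_self _ _)
  have h4 := hI.cover hqpos h1 h2 (fun j x => hfix (c j) (h3 j) (h1 j) x)
  rw [hI.card] at h4
  exact mod_lt_of_cover hqpos h4

/-- `2 ^ m + 1`, `m ≥ 4`, has a prime divisor `≥ 5`. -/
theorem exists_prime_five_le {m : ℕ} (hm : 4 ≤ m) : ∃ p : ℕ, p.Prime ∧ 5 ≤ p ∧ p ∣ 2 ^ m + 1 := by
  by_contra hcon
  push Not at hcon
  obtain ⟨j, rfl⟩ : ∃ j, m = j + 4 := ⟨m - 4, by omega⟩
  have h16 : 2 ^ (j + 4) = 16 * 2 ^ j := by rw [pow_add]; ring
  have h1 : ∀ {d : ℕ}, d.Prime → d ∣ 2 ^ (j + 4) + 1 → d = 3 := by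
    intro d hd hdd
    by_contra hd3
    have hd5 : ¬ 5 ≤ d := fun h => hcon d hd h hdd
    have h2 := hd.two_le
    have h3 : d = 2 ∨ d = 4 := by omega
    rcases h3 with rfl | rfl
    · omega
    · exact absurd hd (by norm_num)
  have h2 := Nat.eq_prime_pow_of_unique_prime_dvd (by omega) h1
  set e := (2 ^ (j + 4) + 1).primeFactorsList.length with he
  have h3 : 3 ^ e % 16 = 1 := by rw [← h2]; omega
  have hmod : ∀ k, 3 ^ (4 * k) % 16 = 1 ∧ 3 ^ (4 * k) % 5 = 1 := by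
    intro k
    induction k with
    | zero => simp
    | succ k ih =>
      have : 3 ^ (4 * (k + 1)) = 81 * 3 ^ (4 * k) := by rw [mul_add, pow_add]; ring
      rw [this]; omega
  have h4 : e % 4 = 0 := by
    have h5 : 3 ^ e = 3 ^ (4 * (e / 4)) * 3 ^ (e % 4) := by rw [← pow_add, Nat.div_add_mod]
    have h6 := (hmod (e / 4)).1
    have h7 : e % 4 < 4 := Nat.mod_lt _ (by norm_num)
    rw [h5, Nat.mul_mod, h6] at h3
    generalize e % 4 = x at h3 h7 ⊢
    interval_cases x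
    · rfl
    · norm_num at h3
    · norm_num at h3
    · norm_num at h3
  have h5 : e = 4 * (e / 4) := by omega
  have h6 := (hmod (e / 4)).2
  rw [← h5, ← h2] at h6
  have h7 : 5 ∣ 2 ^ (j + 4) := by omega
  have h8 := (Nat.Prime.dvd_of_dvd_pow Nat.prime_five h7)
  omega

end Cfsg.Agent.H49.Hall
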