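import Cfsg.Agent.H49.Hall.Trans

set_option autoImplicit false
set_option linter.style.haveILetI false
set_option linter.unusedSectionVars false

/-! The transitive case of the Hall–Thompson theorem: main statement. -/

universe u v

namespace Cfsg.Agent.H49.Hall

variable {α : Type u} [Fintype α] [DecidableEq α] {M : Subgroup (Equiv.Perm α)} {π : Set ℕ}

theorem not_prim (h : AH π M) {r s t : ℕ} (hr : r.Prime) (hs : s.Prime) (ht : t.Prime) (hrs : r ≠ s)
    (hrπ : r ∈ π) (hsπ : s ∈ π) (htπ : t ∉ π) (hrn : r ≤ Fintype.card α) (hsn : s ≤ Fintype.card α)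
    (htn : t ≤ Fintype.card α) : ¬ MulAction.IsPreprimitive M α := by
  intro hprim
  have hn5 : 5 ≤ Fintype.card α := five_le hr hs ht hrs (fun e => htπ (e ▸ hrπ)) (fun e => htπ (e ▸ hsπ)) hrn hsn htn
  by_cases h3 : 3 ∈ π
  · obtain ⟨c, hc, hct⟩ := h.exists_pcycle Nat.prime_three (by norm_num) h3 (by omega)
    exact htπ (h.pi t ht (prime_dvd_of_prim_three hprim hc hct (by omega) ht htn))
  · by_cases h2 : 2 ∈ π
    · obtain ⟨Δ, hΔ, hV⟩ := h.exists_V4 h2 (by omega)
      have h4 := hV.blk (fun hd => h3 (h.pi 3 Nat.prime_three hd))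
      have h5 := h4.eq_univ_of_prim hprim (by omega)
      rw [h5, Finset.card_univ] at hΔ
      omega
    · have key : ∀ p q : ℕ, p.Prime → q.Prime → p ∈ π → q ∈ π → p < q → q ≤ Fintype.card α → False := by
        intro p q hp hq hpπ hqπ hpq hqn
        have hp2 : p ≠ 2 := fun e => h2 (e ▸ hpπ)
        obtain ⟨c, hc, hct⟩ := h.exists_pcycle hp hp2 hpπ (by omega)
        exact h2 (h.pi 2 Nat.prime_two (two_dvd_of_prim_cycle hprim hc hct (by omega)))
      rcases lt_or_gt_of_ne hrs with hlt | hlt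
      · exact key r s hr hs hrπ hsπ hlt hsn
      · exact key s r hs hr hsπ hrπ hlt hrn

/-- The transitive case. -/
theorem trans_case (h : AH π M) (htr : MulAction.IsPretransitive M α)
    {r s t : ℕ} (hr : r.Prime) (hs : s.Prime) (ht : t.Prime) (hrs : r ≠ s)
    (hrπ : r ∈ π) (hsπ : s ∈ π) (htπ : t ∉ π) (hrn : r ≤ Fintype.card α) (hsn : s ≤ Fintype.card α)
    (htn : t ≤ Fintype.card α) :
    Fintype.card α = 8 ∧ (∀ r : ℕ, r.Prime → r ≤ Fintype.card α → (r ∈ π ↔ (r = 2 ∨ r = 3))) ∧
      ∃ A : Finset α, A.card = 4 ∧ ∀ g ∈ M, (∀ x, g x ∈ A ↔ x ∈ A) ∨ (∀ x, g x ∈ A ↔ x ∉ A) := by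
  have hn5 : 5 ≤ Fintype.card α := five_le hr hs ht hrs (fun e => htπ (e ▸ hrπ)) (fun e => htπ (e ▸ hsπ)) hrn hsn htn
  have hnp := not_prim h hr hs ht hrs hrπ hsπ htπ hrn hsn htn
  obtain ⟨ι, _, _, f, a, hI, ha2, hmin, hlt⟩ := exists_min_imp htr (by omega)
  have han := hlt hnp
  have hcard := hI.card
  have hb2 : 2 ≤ Fintype.card ι := by
    by_contra hcon
    have h1 : Fintype.card ι * a ≤ 1 * a := Nat.mul_le_mul_right _ (by omega)
    omega
  have hprimK := hI.indFib_prim htr hmin
  have hcardK : ∀ i, Fintype.card {x // f x = i} = a := fun i => by rw [Fintype.card_subtype]; exact hI.fib i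
  have hbπ : ∀ q : ℕ, q.Prime → q ∣ Fintype.card ι → q ∈ π := by
    intro q hq hqb
    apply h.pi q hq
    apply dvd_of_trans htr _ (by omega)
    rw [hcard]; exact hqb.mul_right _
  by_cases h2 : 2 ∈ π
  · -- an odd prime of π
    obtain ⟨p0, hp0, hp02, hp0π, hp0n⟩ : ∃ p : ℕ, p.Prime ∧ p ≠ 2 ∧ p ∈ π ∧ p ≤ Fintype.card α := by
      by_cases hr2 : r = 2
      · exact ⟨s, hs, fun e => hrs (hr2.trans e.symm), hsπ, hsn⟩
      · exact ⟨r, hr, hr2, hrπ, hrn⟩
    have hp0a := (hI.odd_prime h ha2 hp0 hp02 hp0π hp0n).2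
    have hp03 : 3 ≤ p0 := by
      have := hp0.two_le
      omega
    -- a is even
    have haeven : a % 2 = 0 := by
      have h1 := hI.two_cover h h2 (e := 1) le_rfl (by omega) (by omega)
      rw [pow_one] at h1
      by_contra hcon
      have h3 : a % 2 = 1 := by omega
      rw [h3, mul_one] at h1
      omega
    -- b is a power of 2
    have hbodd : ∀ q : ℕ, q.Prime → q ∣ Fintype.card ι → q = 2 := by
      intro q hq hqb
      by_contra hq2
      obtain ⟨i, hi⟩ := hI.pow_of_odd h ha2 hq hq2 (hbπ q hq hqb) hqb (by omega)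
      have h1 : (q ^ i) % 2 = 1 := Nat.odd_iff.1 ((hq.odd_of_ne_two hq2).pow)
      omega
    have h2b : 2 ∣ Fintype.card ι := by
      obtain ⟨q, hq, hqb⟩ := Nat.exists_prime_and_dvd (by omega : Fintype.card ι ≠ 1)
      exact hbodd q hq hqb ▸ hqb
    -- a is a power of 2
    obtain ⟨i, m, hm, ham⟩ := Nat.exists_eq_pow_mul_and_not_dvd (by omega : a ≠ 0) 2 (by norm_num)
    have hm1 : m = 1 := by
      by_contra hm1
      have hm3 : 3 ≤ m := by
        have : m ≠ 0 := by rintro rfl; exact hm (dvd_zero _)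
        omega
      have hpos : 0 < 2 ^ i := Nat.pow_pos (by norm_num)
      have h1 : 2 ^ (i + 1) < a := by rw [ham, pow_succ]; nlinarith
      have h3 : 2 * 2 ^ (i + 1) ≤ Fintype.card α := by
        rw [hcard]; exact Nat.mul_le_mul hb2 h1.le
      have h4 := hI.two_cover h h2 (e := i + 1) (by omega) h1 h3
      have h5 : 2 ^ (i + 1) ∣ Fintype.card ι * a := by
        rw [ham, pow_succ, mul_comm (2 ^ i) 2]
        exact Nat.mul_dvd_mul h2b (dvd_mul_right _ _)
      have h6 := dvd_of_mod_lt h5 h4 (by omega)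
      rw [ham, pow_succ] at h6
      exact hm (Nat.dvd_of_mul_dvd_mul_left hpos h6)
    rw [hm1, mul_one] at ham
    -- 3 ∈ π
    have h3 : 3 ∈ π := by
      by_contra h3
      obtain ⟨Δ, hΔ, hV⟩ := h.exists_V4 h2 (by omega)
      have h4 := hmin Δ (hV.blk (fun hd => h3 (h.pi 3 Nat.prime_three hd))) (by omega)
      have h5 : p0 ≠ 3 := fun e => h3 (e ▸ hp0π)
      have h6 : p0 ≠ 4 := by rintro rfl; exact absurd hp0 (by norm_num)
      omega
    have hc3 := hI.odd_prime h ha2 Nat.prime_three (by norm_num) h3 (by omega)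
    have hcov3 := odd_cover h hI (e := 1) Nat.prime_three (by norm_num) h3 le_rfl
      (fun c hc hct => hc3.1 c hc (by simpa using hct))
    rw [pow_one] at hcov3
    have hamod : a % 3 ≠ 0 := by
      intro h0
      have h1 : 3 ∣ 2 ^ i := ham ▸ Nat.dvd_of_mod_eq_zero h0
      have h2 := Nat.Prime.dvd_of_dvd_pow Nat.prime_three h1
      omega
    have hbeq : Fintype.card ι = 2 ∧ a % 3 = 1 := by
      have h1 : a % 3 = 1 ∨ a % 3 = 2 := by omega
      rcases h1 with h1 | h1
      · rw [h1] at hcov3; omega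
      · rw [h1] at hcov3; omega
    obtain ⟨hb, ha3⟩ := hbeq
    have ha4 : 4 ≤ a := by omega
    -- all primes ≤ a are in π
    have hallπ : ∀ p : ℕ, p.Prime → p ≤ a → p ∈ π := by
      intro p hp hpa
      obtain ⟨c, hc, hct⟩ := h.exists_pcycle Nat.prime_three (by norm_num) h3 (by omega)
      obtain ⟨j, τ, hτ, hτc⟩ := hI.exists_restrict_cycle hc hct (hc3.1 c hc hct)
      apply h.pi p hp
      apply dvd_of_dvd_indFib (i := j) hp
      exact prime_dvd_of_prim_three (hprimK j) hτ hτc (by rw [hcardK]; exact ha4) hp (by rw [hcardK]; exact hpa)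
    -- a = 4
    have hi : i = 2 := by
      have hi2 : 2 ≤ i := by
        by_contra hcon
        have h1 : 2 ^ i ≤ 2 ^ 1 := Nat.pow_le_pow_right (by norm_num) (by omega)
        omega
      have hi3 : i ≠ 3 := by rintro rfl; norm_num at ham; omega
      have hi4 : i ≠ 4 := by
        rintro rfl
        norm_num at ham
        have h9 := odd_cover h hI (e := 2) Nat.prime_three (by norm_num) h3 (by norm_num) (by
          intro c hc hct x
          by_contra hcon
          have hcy : c.IsCycle := Equiv.Perm.card_cycleType_eq_one.1 (by rw [hct]; simp)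
          have hsc : c.support.card = 3 ^ 2 := by rw [← Equiv.Perm.sum_cycleType, hct]; simp
          have h2' := hI.two_mul_le hc hcon
          omega)
        rw [hb, ham] at h9
        norm_num at h9
      by_contra hne
      have hi5 : 5 ≤ i := by omega
      obtain ⟨p, hp, hp5, hpd⟩ := exists_prime_five_le (m := i - 1) (by omega)
      have hpow : 2 ^ i = 2 * 2 ^ (i - 1) := by
        conv_lhs => rw [show i = (i - 1) + 1 by omega, pow_succ]
        ring
      have hle : p ≤ a := by
        have h1 := Nat.le_of_dvd (by omega) hpd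
        have h2 : 2 ≤ 2 ^ (i - 1) := by
          calc 2 = 2 ^ 1 := rfl
            _ ≤ 2 ^ (i - 1) := Nat.pow_le_pow_right (by norm_num) (by omega)
        omega
      have hpπ := hallπ p hp hle
      have hcp := hI.odd_prime h ha2 hp (by omega) hpπ (by rw [hcard]; nlinarith)
      have hcovp := odd_cover h hI (e := 1) hp (by omega) hpπ le_rfl
        (fun c hc hct => hcp.1 c hc (by simpa using hct))
      rw [pow_one, hb] at hcovp
      have hd2 : p ∣ a + 2 := by
        have h1 : a + 2 = 2 * (2 ^ (i - 1) + 1) := by rw [ham, hpow]; ring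
        rw [h1]; exact hpd.mul_left _
      have h6 : p ∣ a % p + 2 := by
        have h7 : a + 2 = p * (a / p) + (a % p + 2) := by
          conv_lhs => rw [← Nat.div_add_mod a p]
          ring
        rw [h7] at hd2
        exact (Nat.dvd_add_right (dvd_mul_right _ _)).1 hd2
      have h8 : a % p < p := Nat.mod_lt _ hp.pos
      have h9 := Nat.le_of_dvd (by omega) h6
      omega
    subst hi
    have ha : a = 4 := by rw [ham]; norm_num
    subst ha
    have hn8 : Fintype.card α = 8 := by rw [hcard, hb]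
    refine ⟨hn8, ?_, ?_⟩
    · intro q hq hqn
      constructor
      · intro hqπ
        by_cases hq2 : q = 2
        · exact Or.inl hq2
        · have h1 := (hI.odd_prime h ha2 hq hq2 hqπ hqn).2
          have h2 := hq.two_le
          have h4 : q ≠ 4 := by rintro rfl; exact absurd hq (by norm_num)
          omega
      · rintro (rfl | rfl)
        · exact h2
        · exact h3
    · obtain ⟨i0⟩ : Nonempty ι := Fintype.card_pos_iff.1 (by omega)
      obtain ⟨x0, hx0⟩ : (Finset.univ.filter (fun x => f x = i0)).Nonempty :=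
        Finset.card_pos.1 (by rw [hI.fib]; norm_num)
      have hfx0 : f x0 = i0 := (Finset.mem_filter.1 hx0).2
      refine ⟨Finset.univ.filter (fun x => f x = i0), hI.fib i0, ?_⟩
      intro g hg
      have hmem : ∀ x, x ∈ Finset.univ.filter (fun x => f x = i0) ↔ f x = i0 := fun x => by simp
      by_cases hj : f (g x0) = i0
      · left
        intro x
        rw [hmem, hmem]
        conv_lhs => rw [← hj]
        rw [hI.inv_iff hg, hfx0]
      · right
        intro x
        rw [hmem, hmem]
        constructor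
        · intro h1 h4
          apply hj
          rw [← h1]
          exact hI.inv g hg _ _ (by rw [hfx0, h4])
        · intro h1
          by_contra h4
          have h5 : f (g x) ≠ f (g x0) := by
            rw [Ne, hI.inv_iff hg, hfx0]; exact h1
          have h6 : 2 < Fintype.card ι := Fintype.two_lt_card_iff.2 ⟨i0, f (g x0), f (g x), fun e => hj e.symm,
            fun e => h4 e.symm, fun e => h5 e.symm⟩
          omega
  · -- 2 ∉ π
    exfalso
    obtain ⟨q, hq, hqb⟩ := Nat.exists_prime_and_dvd (by omega : Fintype.card ι ≠ 1)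
    have hqπ := hbπ q hq hqb
    have hq2 : q ≠ 2 := fun e => h2 (e ▸ hqπ)
    obtain ⟨i, hi⟩ := hI.pow_of_odd h ha2 hq hq2 hqπ hqb (by omega)
    obtain ⟨p, hp, hpq, hpπ, hpn⟩ : ∃ p : ℕ, p.Prime ∧ p ≠ q ∧ p ∈ π ∧ p ≤ Fintype.card α := by
      by_cases hrq : r = q
      · exact ⟨s, hs, fun e => hrs (hrq.trans e.symm), hsπ, hsn⟩
      · exact ⟨r, hr, hrq, hrπ, hrn⟩
    have hp2 : p ≠ 2 := fun e => h2 (e ▸ hpπ)
    have hcp := hI.odd_prime h ha2 hp hp2 hpπ hpn
    have hpa : p < a := by
      rcases lt_or_eq_of_le hcp.2 with h1 | h1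
      · exact h1
      · exfalso
        have h3 : p ∣ q ^ i := by rw [← hi, ← h1]
        exact hpq ((Nat.prime_dvd_prime_iff_eq hp hq).1 (hp.dvd_of_dvd_pow h3))
    obtain ⟨c, hc, hct⟩ := h.exists_pcycle hp hp2 hpπ hpn
    obtain ⟨j, τ, hτ, hτc⟩ := hI.exists_restrict_cycle hc hct (hcp.1 c hc hct)
    apply h2
    apply h.pi 2 Nat.prime_two
    apply dvd_of_dvd_indFib (i := j) Nat.prime_two
    exact two_dvd_of_prim_cycle (hprimK j) hτ hτc (by rw [hcardK]; exact hpa)

end Cfsg.Agent.H49.Hall
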